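import Mathlib
import Cfsg.Agent.Lib.Helper61.HHDefs

set_option autoImplicit false

namespace Cfsg.Agent.Lib.Helper4.HHC

open Cfsg.Agent.Lib.Helper61.HH Module

universe u v w

variable {K : Type u} [Field K] {W : Type v} [AddCommGroup W] [Module K W]
variable {Q : Type w} [Group Q]

theorem fourier_av_comm [Fintype Q] (ρ : Q →* Module.End K W) (S : Module.End K W) (g : Q) :
    (∑ x : Q, ρ x * S * ρ x⁻¹) * ρ g = ρ g * ∑ x : Q, ρ x * S * ρ x⁻¹ := by
  rw [Finset.sum_mul, Finset.mul_sum, ← Equiv.sum_comp (Equiv.mulLeft g)]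
  refine Finset.sum_congr rfl (fun x _ => ?_)
  change ρ (g * x) * S * ρ (g * x)⁻¹ * ρ g = _
  rw [mul_inv_rev, map_mul, map_mul, mul_assoc, mul_assoc, mul_assoc, mul_assoc, ← map_mul ρ g⁻¹,
    inv_mul_cancel, map_one, mul_one, mul_assoc]

theorem fourier_av [FiniteDimensional K W] [Fintype Q] (ρ : Q →* Module.End K W) (h : Sch ρ)
    (S : Module.End K W) :
    ∃ c : K, (∑ x : Q, ρ x * S * ρ x⁻¹) = c • (1 : Module.End K W) ∧
      c * (finrank K W : K) = (Nat.card Q : K) * LinearMap.trace K W S := by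
  obtain ⟨c, hc⟩ := h _ (fourier_av_comm ρ S)
  refine ⟨c, hc, ?_⟩
  have h1 := congrArg (LinearMap.trace K W) hc
  rw [map_sum, map_smul, LinearMap.trace_one, smul_eq_mul] at h1
  rw [← h1]
  have h2 : ∀ x : Q, LinearMap.trace K W (ρ x * S * ρ x⁻¹) = LinearMap.trace K W S := by
    intro x
    rw [LinearMap.trace_mul_comm, ← mul_assoc, ← map_mul, inv_mul_cancel, map_one, one_mul]
  simp only [h2]
  rw [Finset.sum_const, Finset.card_univ, ← Nat.card_eq_fintype_card, nsmul_eq_mul]

/-- FOURIER -/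
theorem fourier [FiniteDimensional K W] [Nontrivial W] [Fintype Q]
    (ρ : Q →* Module.End K W) (hQK : (Nat.card Q : K) ≠ 0) (h : Sch ρ) :
    ∃ d : K, ∀ T' : Module.End K W,
      T' = d • ∑ x : Q, (LinearMap.trace K W (T' * ρ x⁻¹)) • ρ x := by
  classical
  have hn : (finrank K W : K) ≠ 0 := by
    obtain ⟨w, hw⟩ := exists_ne (0 : W)
    have h1 : ¬ ∀ φ : Module.Dual K W, φ w = 0 := by
      rw [Module.forall_dual_apply_eq_zero_iff K w]
      exact hw
    push Not at h1
    obtain ⟨φ, hφ⟩ := h1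
    obtain ⟨c, -, hc⟩ := fourier_av ρ h (LinearMap.smulRight φ w)
    rw [LinearMap.trace_smulRight] at hc
    intro h0
    rw [h0, mul_zero] at hc
    exact (mul_ne_zero hQK hφ) hc.symm
  refine ⟨(finrank K W : K) / (Nat.card Q : K), ?_⟩
  have key : ∀ (φ : Module.Dual K W) (w : W), LinearMap.smulRight φ w =
      ((finrank K W : K) / (Nat.card Q : K)) •
        ∑ x : Q, (LinearMap.trace K W (LinearMap.smulRight φ w * ρ x⁻¹)) • ρ x := by
    intro φ w
    ext v
    obtain ⟨c, hc1, hc2⟩ := fourier_av ρ h (LinearMap.smulRight φ v)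
    rw [LinearMap.trace_smulRight] at hc2
    have h1 : ∀ x : Q, LinearMap.trace K W (LinearMap.smulRight φ w * ρ x⁻¹) = φ (ρ x⁻¹ w) := by
      intro x
      have e : LinearMap.smulRight φ w * ρ x⁻¹ = LinearMap.smulRight (φ ∘ₗ ρ x⁻¹) w := by
        ext u
        rfl
      rw [e, LinearMap.trace_smulRight]
      rfl
    simp only [h1]
    have h2 := congrArg (fun f : Module.End K W => f w) hc1
    simp only [LinearMap.sum_apply, LinearMap.smul_apply, Module.End.one_apply] at h2
    have h3 : ∀ x : Q, (ρ x * LinearMap.smulRight φ v * ρ x⁻¹) w = φ (ρ x⁻¹ w) • ρ x v := by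
      intro x
      change ρ x (φ (ρ x⁻¹ w) • v) = _
      rw [map_smul]
    simp only [h3] at h2
    simp only [LinearMap.smul_apply, LinearMap.sum_apply, LinearMap.smulRight_apply]
    rw [h2, smul_smul]
    congr 1
    field_simp
    linear_combination -hc2
  intro T'
  let b := Module.finBasis K W
  have hT : T' = ∑ i, LinearMap.smulRight (b.coord i) (T' (b i)) := by
    ext u
    rw [LinearMap.sum_apply]
    simp only [LinearMap.smulRight_apply, Module.Basis.coord_apply]
    conv_lhs => rw [← b.sum_repr u, map_sum]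
    simp only [map_smul]
  conv_lhs => rw [hT]
  conv_rhs => rw [hT]
  simp only [Finset.sum_mul, map_sum, Finset.sum_smul]
  rw [Finset.sum_comm, Finset.smul_sum]
  refine Finset.sum_congr rfl (fun i _ => ?_)
  exact key _ _

end Cfsg.Agent.Lib.Helper4.HHC
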