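import Mathlib
import Cfsg.Agent.Lib.Helper61.HHDefs

set_option autoImplicit false

namespace Cfsg.Agent.Lib.Helper4.HHC

open Cfsg.Agent.Lib.Helper61.HH Module

universe u v w

variable {K : Type u} [Field K] {W : Type v} [AddCommGroup W] [Module K W]
variable {Q : Type w} [Group Q]

/-- SCHUR -/
theorem sch_of_irr [IsAlgClosed K] [FiniteDimensional K W] [Nontrivial W]
    (ρ : Q →* Module.End K W) (h : Irr ρ) : Sch ρ := by
  intro S hS
  obtain ⟨l, hl⟩ := Module.End.exists_eigenvalue S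
  refine ⟨l, ?_⟩
  have hU := h (Module.End.eigenspace S l) (by
    intro g y hy
    rw [Module.End.mem_eigenspace_iff] at hy ⊢
    have h1 := congrArg (fun f : Module.End K W => f y) (hS g)
    change S (ρ g y) = ρ g (S y) at h1
    rw [h1, hy, map_smul])
  rcases hU with hU | hU
  · exact absurd hU hl
  · ext y
    have h2 : y ∈ Module.End.eigenspace S l := by rw [hU]; trivial
    rw [Module.End.mem_eigenspace_iff] at h2
    simpa using h2

/-- MASCHKE -/
theorem irr_of_sch [Finite Q] (ρ : Q →* Module.End K W) (hQK : (Nat.card Q : K) ≠ 0)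
    (h : Sch ρ) : Irr ρ := by
  classical
  have : Fintype Q := Fintype.ofFinite Q
  intro U hU
  obtain ⟨U', hc⟩ := Submodule.exists_isCompl U
  let π0 : Module.End K W := U.subtype ∘ₗ Submodule.projectionOnto U U' hc
  have hπ0mem : ∀ y, π0 y ∈ U := fun y => (Submodule.projectionOnto U U' hc y).2
  have hπ0id : ∀ y ∈ U, π0 y = y := by
    intro y hy
    change ((Submodule.projectionOnto U U' hc y : U) : W) = y
    have := Submodule.projectionOnto_apply_left hc ⟨y, hy⟩
    rw [show (y : W) = ((⟨y, hy⟩ : U) : W) from rfl, this]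
  let π : Module.End K W := ∑ g : Q, ρ g * π0 * ρ g⁻¹
  have hcomm : ∀ g, π * ρ g = ρ g * π := by
    intro g
    change (∑ x : Q, ρ x * π0 * ρ x⁻¹) * ρ g = ρ g * ∑ x : Q, ρ x * π0 * ρ x⁻¹
    rw [Finset.sum_mul, Finset.mul_sum, ← Equiv.sum_comp (Equiv.mulLeft g)]
    refine Finset.sum_congr rfl (fun x _ => ?_)
    change ρ (g * x) * π0 * ρ (g * x)⁻¹ * ρ g = _
    rw [mul_inv_rev, map_mul, map_mul, mul_assoc, mul_assoc, mul_assoc, mul_assoc, ← map_mul ρ g⁻¹,
      inv_mul_cancel, map_one, mul_one, mul_assoc]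
  obtain ⟨l, hl⟩ := h π hcomm
  have hπmem : ∀ y, π y ∈ U := by
    intro y
    change (∑ x : Q, ρ x * π0 * ρ x⁻¹) y ∈ U
    rw [LinearMap.sum_apply]
    apply Submodule.sum_mem
    intro x _
    exact hU x _ (hπ0mem _)
  have hπid : ∀ y ∈ U, π y = (Nat.card Q : K) • y := by
    intro y hy
    change (∑ x : Q, ρ x * π0 * ρ x⁻¹) y = _
    rw [LinearMap.sum_apply]
    have h1 : ∀ x : Q, (ρ x * π0 * ρ x⁻¹) y = y := by
      intro x
      change ρ x (π0 (ρ x⁻¹ y)) = y
      rw [hπ0id _ (hU x⁻¹ y hy)]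
      change (ρ x * ρ x⁻¹) y = y
      rw [← map_mul, mul_inv_cancel, map_one]
      rfl
    simp only [h1]
    rw [Finset.sum_const, Finset.card_univ, ← Nat.card_eq_fintype_card, Nat.cast_smul_eq_nsmul]
  by_cases hl0 : l = 0
  · left
    rw [eq_bot_iff]
    intro y hy
    have h1 := hπid y hy
    rw [hl, hl0] at h1
    simp only [zero_smul, LinearMap.zero_apply] at h1
    rw [Submodule.mem_bot]
    exact (smul_eq_zero.mp h1.symm).resolve_left hQK
  · right
    rw [eq_top_iff]
    intro y _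
    have h1 := hπmem y
    rw [hl] at h1
    change l • y ∈ U at h1
    exact (Submodule.smul_mem_iff U hl0).mp h1

end Cfsg.Agent.Lib.Helper4.HHC
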