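import Mathlib
import Cfsg.Prelude.Def_Characters
import Cfsg.Agent.Lib.Helper4.Eigen
import Cfsg.Agent.Lib.Helper4.CharBasic
import Cfsg.Agent.Lib.Helper4.CharIntegral
import Cfsg.Agent.Lib.Helper20.CharOrth
import Cfsg.Agent.Lib.Helper79.GaloisChar
import Cfsg.Agent.S0139

set_option autoImplicit false

namespace Cfsg.Agent.Lib.Helper4

open scoped ComplexConjugate

/-- a `p`-subgroup is conjugate into any subgroup of index prime to `p` -/
theorem exists_conj_le_of_not_dvd_index {G : Type*} [Group G] [Finite G] {p : ℕ} [Fact p.Prime]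
    (A R : Subgroup G) (hR : IsPGroup p R) (hA : ¬ p ∣ A.index) :
    ∃ g : G, ∀ r ∈ R, g⁻¹ * r * g ∈ A := by
  have h0 : ¬ p ∣ Nat.card (G ⧸ A) := by rwa [← Subgroup.index_eq_card]
  obtain ⟨x, hx⟩ := hR.nonempty_fixed_point_of_prime_not_dvd_card (G ⧸ A) h0
  obtain ⟨g, rfl⟩ := QuotientGroup.mk_surjective x
  refine ⟨g, fun r hr => ?_⟩
  have h1 : (⟨r, hr⟩ : R) • (g : G ⧸ A) = (g : G ⧸ A) := hx ⟨r, hr⟩
  have h2 : ((r * g : G) : G ⧸ A) = (g : G ⧸ A) := h1
  rw [QuotientGroup.eq] at h2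
  have h3 := A.inv_mem h2
  have e : ((r * g)⁻¹ * g)⁻¹ = g⁻¹ * r * g := by group
  rwa [e] at h3

theorem isPGroup_zpowers {G : Type*} [Group G] {p : ℕ} {x : G} (h : ∃ s : ℕ, x ^ p ^ s = 1) :
    IsPGroup p (Subgroup.zpowers x) := by
  obtain ⟨s, hs⟩ := h
  rintro ⟨y, hy⟩
  obtain ⟨j, rfl⟩ := Subgroup.mem_zpowers_iff.1 hy
  refine ⟨s, ?_⟩
  apply Subtype.ext
  rw [Subgroup.coe_pow, Subgroup.coe_one]
  change (x ^ j) ^ p ^ s = 1
  rw [← zpow_natCast, ← zpow_mul, mul_comm, zpow_mul, zpow_natCast, hs, one_zpow]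

theorem exists_conj_mem_of_not_dvd_index {G : Type*} [Group G] [Finite G] {p : ℕ} [Fact p.Prime]
    (A : Subgroup G) {x : G} (hx : ∃ s : ℕ, x ^ p ^ s = 1) (hA : ¬ p ∣ A.index) :
    ∃ g : G, g⁻¹ * x * g ∈ A := by
  obtain ⟨g, hg⟩ := exists_conj_le_of_not_dvd_index A (Subgroup.zpowers x) (isPGroup_zpowers hx) hA
  exact ⟨g, hg x (Subgroup.mem_zpowers x)⟩

/-- the Galois trick -/
theorem galois_trick {G : Type*} [Group G] [Fintype G] {θ : G → ℂ} (hθ : IsIrrCharacter G θ)
    {k l : ℕ} (hk : k.Coprime (Nat.card G)) (hl : l.Coprime (Nat.card G))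
    (h : ∀ g, θ (g ^ k) = θ g ∨ θ (g ^ l) = θ g) :
    (∀ g, θ (g ^ k) = θ g) ∨ (∀ g, θ (g ^ l) = θ g) := by
  classical
  have hk' := Cfsg.Agent.Lib.Helper79.IsIrrCharacter.pow_coprime hθ k hk
  have hl' := Cfsg.Agent.Lib.Helper79.IsIrrCharacter.pow_coprime hθ l hl
  by_contra hcon
  push Not at hcon
  obtain ⟨⟨g₁, hg₁⟩, ⟨g₂, hg₂⟩⟩ := hcon
  have hne1 : (fun g => θ (g ^ k)) ≠ θ := fun e => hg₁ (congrFun e g₁)
  have hne2 : (fun g => θ (g ^ l)) ≠ θ := fun e => hg₂ (congrFun e g₂)
  have h0 : classInner ((fun g => θ (g ^ k)) - θ) ((fun g => θ (g ^ l)) - θ) = 0 := by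
    unfold classInner
    rw [Finset.sum_eq_zero, mul_zero]
    intro g _
    rcases h g with h1 | h1
    · simp [h1]
    · simp [h1]
  rw [Cfsg.Agent.Lib.Helper20.classInner_sub_left, Cfsg.Agent.Lib.Helper20.classInner_sub_right,
    Cfsg.Agent.Lib.Helper20.classInner_sub_right,
    Cfsg.Agent.Lib.Helper20.classInner_irr_ne hk' hθ hne1,
    Cfsg.Agent.Lib.Helper20.classInner_irr_ne hθ hl' (Ne.symm hne2),
    Cfsg.Agent.Lib.Helper20.classInner_irr_self hθ,
    Cfsg.Agent.Lib.Helper20.classInner_irr hk' hl'] at h0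
  split_ifs at h0 <;> norm_num at h0

theorem geom_sum_root {μ : ℂ} {p : ℕ} (h : μ ^ p = 1) :
    ∑ k ∈ Finset.range p, μ ^ k = if μ = 1 then (p : ℂ) else 0 := by
  split_ifs with h1
  · simp [h1]
  · rw [geom_sum_eq h1, h, sub_self, zero_div]

/-- a character of degree `< p - 1` that is rational on `p`-elements is trivial on them -/
theorem char_eq_degree_of_rational {G : Type*} [Group G] [Finite G] {θ : G → ℂ}
    (hθ : IsCharacter G θ) {d p : ℕ} (hp : p.Prime) (hd : θ 1 = d) (hdp : d + 1 < p)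
    (hrat : ∀ x : G, (∃ s : ℕ, x ^ p ^ s = 1) → ∀ i : ℕ, i.Coprime p → θ (x ^ i) = θ x) :
    ∀ (s : ℕ) (x : G), x ^ p ^ s = 1 → θ x = d := by
  classical
  intro s
  induction s with
  | zero =>
    intro x hx
    rw [pow_zero, pow_one] at hx
    rw [hx, hd]
  | succ s ih =>
    intro x hx
    have hxp : θ (x ^ p) = d := by
      apply ih
      rw [← pow_mul, ← pow_succ']
      exact hx
    have hint : IsIntegral ℤ (θ x) := Cfsg.Agent.Lib.Helper20.isCharacter_isIntegral hθ x
    have hr := hrat x ⟨s + 1, hx⟩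
    obtain ⟨n, ρ, rfl⟩ := hθ
    have hn : Module.finrank ℂ (Fin n → ℂ) = d := by
      rw [Representation.char_one] at hd
      exact_mod_cast hd
    obtain ⟨b, μ, hb, -⟩ := exists_eigenbasis ρ x
    have hpow : ∀ (k : ℕ) i, ρ (x ^ k) (b i) = μ i ^ k • b i := by
      intro k i
      induction k with
      | zero => simp
      | succ k ihk =>
        rw [pow_succ, map_mul, Module.End.mul_apply, hb, map_smul, ihk, smul_smul, pow_succ,
          mul_comm]
    have hchar : ∀ k : ℕ, ρ.character (x ^ k) = ∑ i, μ i ^ k := fun k =>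
      trace_eq_sum_of_eigenbasis _ b _ (hpow k)
    have hid : ρ (x ^ p) = LinearMap.id := by
      rw [← Cfsg.Agent.S0139.result, hxp, hn]
    have hμ : ∀ i, μ i ^ p = 1 := by
      intro i
      have h1 := hpow p i
      rw [hid, LinearMap.id_apply] at h1
      have h2 : (μ i ^ p - 1) • b i = 0 := by rw [sub_smul, one_smul, ← h1, sub_self]
      rcases smul_eq_zero.1 h2 with h3 | h3
      · exact sub_eq_zero.1 h3
      · exact absurd h3 (b.ne_zero i)
    set m : ℕ := (Finset.univ.filter (fun i => μ i = 1)).card with hm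
    have hmd : m ≤ d := by
      rw [hm, ← hn]
      calc (Finset.univ.filter (fun i => μ i = 1)).card ≤ (Finset.univ : Finset (Fin _)).card :=
            Finset.card_filter_le _ _
        _ = _ := by simp
    have hS1 : ∑ k ∈ Finset.range p, ρ.character (x ^ k) = (p : ℂ) * m := by
      simp_rw [hchar]
      rw [Finset.sum_comm]
      simp_rw [geom_sum_root (hμ _)]
      rw [← Finset.sum_filter, Finset.sum_const, hm, nsmul_eq_mul, mul_comm]
    have hS2 : ∑ k ∈ Finset.range p, ρ.character (x ^ k) =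
        (d : ℂ) + ((p : ℂ) - 1) * ρ.character x := by
      obtain ⟨p', rfl⟩ : ∃ p', p = p' + 1 := ⟨p - 1, by have := hp.pos; omega⟩
      rw [Finset.sum_range_succ', pow_zero, hd, add_comm]
      congr 1
      rw [Finset.sum_congr rfl (g := fun _ => ρ.character x), Finset.sum_const, Finset.card_range,
        nsmul_eq_mul]
      · push_cast; ring
      · intro k hk
        apply hr
        rw [Finset.mem_range] at hk
        exact (Nat.coprime_of_lt_prime (by omega) (by omega) hp).symm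
    have h3 : ((p : ℂ) - 1) * ρ.character x = (p : ℂ) * m - d := by
      rw [hS1] at hS2
      linear_combination -hS2
    have hp1 : ((p : ℂ) - 1) ≠ 0 := by
      intro h
      have h4 : (p : ℂ) = 1 := by linear_combination h
      have h5 : p = 1 := by exact_mod_cast h4
      exact hp.one_lt.ne' h5
    have h4 : ρ.character x = (((p : ℚ) * m - d) / ((p : ℚ) - 1) : ℚ) := by
      push_cast
      rw [eq_div_iff hp1, mul_comm]
      exact h3
    rw [h4] at hint
    obtain ⟨z, hz⟩ := exists_int_of_isIntegral_rat hint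
    have hp1' : ((p : ℚ) - 1) ≠ 0 := by
      intro h
      have h4 : (p : ℚ) = 1 := by linear_combination h
      have h5 : p = 1 := by exact_mod_cast h4
      exact hp.one_lt.ne' h5
    rw [div_eq_iff hp1'] at hz
    have hz' : (p : ℤ) * m - d = z * ((p : ℤ) - 1) := by exact_mod_cast hz
    -- (p-1) ∣ m - d
    have hdvd : ((p : ℤ) - 1) ∣ ((d : ℤ) - m) := ⟨m - z, by linear_combination -hz'⟩
    have hmd' : (d : ℤ) - m = 0 := by
      apply Int.eq_zero_of_abs_lt_dvd hdvd
      rw [abs_of_nonneg (by omega)]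
      omega
    have hzd : z = d := by
      have h5 : (z - d) * ((p : ℤ) - 1) = 0 := by
        have : (m : ℤ) = d := by omega
        rw [this] at hz'
        linear_combination -hz'
      rcases mul_eq_zero.1 h5 with h6 | h6
      · omega
      · have := hp.one_lt
        omega
    rw [h4]
    have h6 : (((p : ℚ) * m - d) / ((p : ℚ) - 1) : ℚ) = z := by
      rw [div_eq_iff hp1']
      exact hz
    rw [h6, hzd]
    simp

end Cfsg.Agent.Lib.Helper4
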