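import Mathlib
import Cfsg.Prelude.Def_Characters
import Cfsg.Agent.Lib.Helper4.Blich1
import Cfsg.Agent.Lib.Helper19.DetChar
import Cfsg.Agent.Lib.Helper82.Central
import Cfsg.Agent.Lib.Helper82.Linear
import Cfsg.Agent.Lib.Helper82.CharKer

set_option autoImplicit false

namespace Cfsg.Agent.Lib.Helper4

open scoped ComplexConjugate
open Cfsg.Agent.Lib.Helper19 (homFun detHom detHom_apply isCharacter_homFun homFun_apply)

/-- central elements act as scalars in an irreducible representation -/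
theorem exists_scalar_of_central {G : Type*} [Group G] {V : Type*} [AddCommGroup V] [Module ℂ V]
    [FiniteDimensional ℂ V] (ρ : Representation ℂ G V) [ρ.IsIrreducible] {z : G}
    (hz : z ∈ Subgroup.center G) : ∃ c : ℂ, ρ z = c • LinearMap.id := by
  let f : Representation.IntertwiningMap ρ ρ :=
    LinearMap.intertwiningMap_of_isIntertwiningMap ρ ρ (ρ z) (by
      intro g v
      rw [← Module.End.mul_apply, ← Module.End.mul_apply, ← map_mul, ← map_mul,
        Subgroup.mem_center_iff.1 hz g])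
  obtain ⟨c, hc⟩ :=
    (Representation.IsIrreducible.algebraMap_intertwiningMap_bijective_of_isAlgClosed (ρ := ρ)).2 f
  refine ⟨c, ?_⟩
  ext v
  have h1 := congrArg (fun F : Representation.IntertwiningMap ρ ρ => F v) hc
  have h2 : f v = ρ z v := rfl
  rw [← h2]
  simpa using h1.symm

/-- a linear character of `G` agreeing with the central character of `ψ` on central elements of
order dividing `R`, `R` prime to the degree -/
theorem exists_twist {G : Type*} [Group G] [Finite G] {ψ : G → ℂ} (hψ : IsIrrCharacter G ψ)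
    {d R : ℕ} (hd : ψ 1 = d) (hR : R.Coprime d) :
    ∃ ν : G →* ℂˣ, ∀ w ∈ Subgroup.center G, w ^ R = 1 → ψ w = ((ν w : ℂˣ) : ℂ) * d := by
  obtain ⟨n, ρ, hρ, rfl⟩ := hψ
  have hn : Module.finrank ℂ (Fin n → ℂ) = d := by
    rw [Representation.char_one] at hd
    exact_mod_cast hd
  have hnd : n = d := by simpa using hn
  have hd0 : 0 < d := by
    obtain ⟨m, hm, h1⟩ := irr_apply_one (⟨n, ρ, hρ, rfl⟩ : IsIrrCharacter G ρ.character)
    rw [hd] at h1
    have : d = m := by exact_mod_cast h1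
    omega
  obtain ⟨E, hE⟩ : ∃ E : ℕ, d * E ≡ 1 [MOD R] := by
    rcases Nat.lt_or_ge 1 R with h1 | h1
    · obtain ⟨m, -, hm⟩ := Nat.exists_mul_mod_eq_one_of_coprime hR.symm h1
      refine ⟨m, ?_⟩
      unfold Nat.ModEq
      rw [hm, Nat.mod_eq_of_lt h1]
    · interval_cases R
      · have : d = 1 := by simpa using hR
        exact ⟨1, by rw [this]⟩
      · exact ⟨0, Nat.modEq_one⟩
  refine ⟨(detHom ρ) ^ E, ?_⟩
  intro w hw hwR
  obtain ⟨c, hc⟩ := exists_scalar_of_central ρ hw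
  have hpow : ∀ k : ℕ, ρ (w ^ k) = c ^ k • LinearMap.id := by
    intro k
    rw [map_pow, hc]
    ext v i
    simp [smul_pow]
  have hcR : c ^ R = 1 := by
    have h1 := hpow R
    rw [hwR, map_one] at h1
    have h2 := congrArg (LinearMap.trace ℂ (Fin n → ℂ)) h1
    rw [map_smul, LinearMap.trace_id, LinearMap.trace_one, hn, smul_eq_mul] at h2
    have h3 : (d : ℂ) ≠ 0 := by exact_mod_cast hd0.ne'
    have h4 : (c ^ R - 1) * (d : ℂ) = 0 := by linear_combination -h2
    rcases mul_eq_zero.1 h4 with h5 | h5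
    · exact sub_eq_zero.1 h5
    · exact absurd h5 h3
  have hdet : ((detHom ρ w : ℂˣ) : ℂ) = c ^ d := by
    rw [detHom_apply, hc, LinearMap.det_smul, LinearMap.det_id, mul_one, hn]
  have hval : ρ.character w = c * d := by
    have h0 : ρ.character w = LinearMap.trace ℂ (Fin n → ℂ) (ρ w) := rfl
    rw [h0, hc, map_smul, LinearMap.trace_id, hn, smul_eq_mul]
  rw [hval, MonoidHom.pow_apply, Units.val_pow_eq_pow_val, hdet, ← pow_mul]
  congr 1
  have h1 : c ^ (d * E) = c ^ 1 := by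
    rw [pow_eq_pow_mod (d * E) hcR, pow_eq_pow_mod 1 hcR, hE]
  rw [h1, pow_one]

/-- the twisted character is fixed by `g ↦ g ^ (1 + j M)` when `g ^ M` is central -/
theorem twist_fixed {G : Type*} [Group G] [Finite G] {ψ : G → ℂ} (hψ : IsIrrCharacter G ψ)
    {d R : ℕ} (hd : ψ 1 = d) (ν : G →* ℂˣ)
    (hν : ∀ w ∈ Subgroup.center G, w ^ R = 1 → ψ w = ((ν w : ℂˣ) : ℂ) * d)
    {P M : ℕ} (hPM : P * M = Nat.card G) (hPR : P ∣ R) {g : G} (hg : g ^ M ∈ Subgroup.center G)
    (j : ℕ) : (homFun ν⁻¹ * ψ) (g ^ (1 + j * M)) = (homFun ν⁻¹ * ψ) g := by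
  have hd0 : (d : ℂ) ≠ 0 := by
    rw [← hd]
    exact irr_apply_one_ne_zero hψ
  set w : G := (g ^ M) ^ j with hw
  have hwc : w ∈ Subgroup.center G := Subgroup.pow_mem _ hg j
  have hwP : w ^ P = 1 := by
    rw [hw, ← pow_mul, ← pow_mul, show M * (j * P) = (P * M) * j by ring, hPM, pow_mul,
      pow_card_eq_one', one_pow]
  have hwR : w ^ R = 1 := by
    obtain ⟨t, rfl⟩ := hPR
    rw [pow_mul, hwP, one_pow]
  have e1 : g ^ (1 + j * M) = w * g := by
    rw [hw, ← pow_mul, add_comm, pow_add, pow_one, mul_comm j M]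
  have h1 := Cfsg.Agent.Lib.Helper82.isIrr_central_mul hψ hwc g
  rw [hν w hwc hwR, hd] at h1
  have h2 : ψ (w * g) = ((ν w : ℂˣ) : ℂ) * ψ g := by
    apply mul_right_cancel₀ hd0
    rw [h1]; ring
  rw [e1, Pi.mul_apply, Pi.mul_apply, homFun_apply, homFun_apply, h2, MonoidHom.inv_apply,
    MonoidHom.inv_apply, map_mul, mul_inv, Units.val_mul]
  have h3 : (((ν w)⁻¹ : ℂˣ) : ℂ) * ((ν w : ℂˣ) : ℂ) = 1 := by
    rw [← Units.val_mul]; simp
  linear_combination ((((ν g)⁻¹ : ℂˣ) : ℂ) * ψ g) * h3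

/-- invariance under the powers `1 + j M` gives rationality on `p`-elements -/
theorem rational_of_fixed {G : Type*} [Group G] [Finite G] (θ : G → ℂ) {p : ℕ} (hp : p.Prime)
    (hA : ∀ j : ℕ, (1 + j * (ordCompl[p] (Nat.card G))).Coprime (Nat.card G) →
      ∀ g : G, θ (g ^ (1 + j * (ordCompl[p] (Nat.card G)))) = θ g)
    (x : G) (hx : ∃ s : ℕ, x ^ p ^ s = 1) (i : ℕ) (hi : i.Coprime p) : θ (x ^ i) = θ x := by
  set N := Nat.card G with hN
  have hN0 : N ≠ 0 := Nat.card_pos.ne'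
  set M := ordCompl[p] N with hM
  set P := ordProj[p] N with hP
  have hPM : P * M = N := Nat.ordProj_mul_ordCompl_eq_self N p
  have hcop : Nat.Coprime P M := by
    rw [hP]
    exact Nat.Coprime.pow_left _ (Nat.coprime_ordCompl hp hN0)
  obtain ⟨k, hk1, hk2⟩ := Nat.chineseRemainder hcop i 1
  -- replace k by k + N to make it positive
  have hk1' : k + N ≡ i [MOD P] := by
    have : N ≡ 0 [MOD P] := (Nat.modEq_zero_iff_dvd).2 ⟨M, hPM.symm⟩
    simpa using hk1.add this
  have hk2' : k + N ≡ 1 [MOD M] := by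
    have : N ≡ 0 [MOD M] := (Nat.modEq_zero_iff_dvd).2 ⟨P, by rw [mul_comm]; exact hPM.symm⟩
    simpa using hk2.add this
  have hpos : 1 ≤ k + N := by omega
  obtain ⟨j, hj⟩ : ∃ j, k + N = 1 + j * M := by
    have := (Nat.modEq_iff_dvd' hpos).1 hk2'.symm
    obtain ⟨j, hj⟩ := this
    exact ⟨j, by rw [mul_comm]; omega⟩
  have hcopN : (1 + j * M).Coprime N := by
    rw [← hPM]
    apply Nat.Coprime.mul_right
    · rw [← hj]
      by_cases ha : N.factorization p = 0
      · rw [hP, ha, pow_zero]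
        exact Nat.coprime_one_right _
      · rw [hP]
        apply Nat.Coprime.pow_right
        have hpP : p ∣ P := by
          rw [hP]
          exact dvd_pow_self p ha
        have h1 : (k + N).gcd p = i.gcd p := (hk1'.of_dvd hpP).gcd_eq
        rw [Nat.coprime_iff_gcd_eq_one, h1]
        exact hi
    · simp
  have hord : orderOf x ∣ P := by
    obtain ⟨s, hs⟩ := hx
    obtain ⟨t, -, ht⟩ := (Nat.dvd_prime_pow hp).1 (orderOf_dvd_of_pow_eq_one hs)
    rw [ht, hP]
    apply pow_dvd_pow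
    apply (hp.pow_dvd_iff_le_factorization hN0).1
    rw [← ht]
    exact orderOf_dvd_natCard x
  have e : x ^ (1 + j * M) = x ^ i := by
    rw [← hj]
    exact pow_eq_pow_iff_modEq.2 (hk1'.of_dvd hord)
  rw [← e]
  exact hA j hcopN x

/-- if commuting `p`- and `q`-elements are never both non-central, then all commutators of
`p`-elements with `q`-elements lie in the kernel of every irreducible character of small degree -/
theorem comm_mem_ker_of_F1 {G : Type*} [Group G] [Finite G] {p q : ℕ} (hp : p.Prime)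
    (hq : q.Prime) {ψ : G → ℂ} (hψ : IsIrrCharacter G ψ) {d : ℕ} (hd : ψ 1 = d)
    (hdp : d + 1 < p) (hdq : d + 1 < q)
    (hF : ∀ x y : G, (∃ s : ℕ, x ^ p ^ s = 1) → (∃ s : ℕ, y ^ q ^ s = 1) → Commute x y →
      x ∈ Subgroup.center G ∨ y ∈ Subgroup.center G)
    (x y : G) (hx : ∃ s : ℕ, x ^ p ^ s = 1) (hy : ∃ s : ℕ, y ^ q ^ s = 1) :
    ψ (x * y * x⁻¹ * y⁻¹) = ψ 1 := by
  classical
  have := Fintype.ofFinite G
  have hN0 : Nat.card G ≠ 0 := Nat.card_pos.ne'
  have hd0 : 0 < d := by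
    obtain ⟨m, hm, h1⟩ := irr_apply_one hψ
    rw [hd] at h1
    have : d = m := by exact_mod_cast h1
    omega
  have hR : (ordProj[p] (Nat.card G) * ordProj[q] (Nat.card G)).Coprime d := by
    apply Nat.Coprime.mul_left
    · exact Nat.Coprime.pow_left _ (Nat.coprime_of_lt_prime hd0.ne' (by omega) hp)
    · exact Nat.Coprime.pow_left _ (Nat.coprime_of_lt_prime hd0.ne' (by omega) hq)
  obtain ⟨ν, hν⟩ := exists_twist hψ hd hR
  set θ : G → ℂ := homFun ν⁻¹ * ψ with hθdef
  have hθ : IsIrrCharacter G θ :=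
    Cfsg.Agent.Lib.Helper82.isIrr_linear_mul (isCharacter_homFun ν⁻¹).1 (isCharacter_homFun ν⁻¹).2 hψ
  have hθc : IsCharacter G θ := isCharacter_of_irr hθ
  have hθ1 : θ 1 = d := by
    rw [hθdef, Pi.mul_apply, (isCharacter_homFun ν⁻¹).2, one_mul, hd]
  have hfixp : ∀ g : G, g ^ (ordCompl[p] (Nat.card G)) ∈ Subgroup.center G → ∀ j : ℕ,
      θ (g ^ (1 + j * (ordCompl[p] (Nat.card G)))) = θ g := fun g hg j =>
    twist_fixed hψ hd ν hν (Nat.ordProj_mul_ordCompl_eq_self _ p) (Dvd.intro _ rfl) hg j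
  have hfixq : ∀ g : G, g ^ (ordCompl[q] (Nat.card G)) ∈ Subgroup.center G → ∀ j : ℕ,
      θ (g ^ (1 + j * (ordCompl[q] (Nat.card G)))) = θ g := fun g hg j =>
    twist_fixed hψ hd ν hν (Nat.ordProj_mul_ordCompl_eq_self _ q) (Dvd.intro_left _ rfl) hg j
  have hdich : ∀ g : G, g ^ (ordCompl[p] (Nat.card G)) ∈ Subgroup.center G ∨
      g ^ (ordCompl[q] (Nat.card G)) ∈ Subgroup.center G := by
    intro g
    apply hF
    · exact ⟨(Nat.card G).factorization p, by
        rw [← pow_mul, mul_comm, Nat.ordProj_mul_ordCompl_eq_self, pow_card_eq_one']⟩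
    · exact ⟨(Nat.card G).factorization q, by
        rw [← pow_mul, mul_comm, Nat.ordProj_mul_ordCompl_eq_self, pow_card_eq_one']⟩
    · exact (Commute.refl g).pow_pow _ _
  have hAB : (∀ j : ℕ, (1 + j * (ordCompl[p] (Nat.card G))).Coprime (Nat.card G) →
        ∀ g : G, θ (g ^ (1 + j * (ordCompl[p] (Nat.card G)))) = θ g) ∨
      (∀ j : ℕ, (1 + j * (ordCompl[q] (Nat.card G))).Coprime (Nat.card G) →
        ∀ g : G, θ (g ^ (1 + j * (ordCompl[q] (Nat.card G)))) = θ g) := by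
    by_contra hcon
    push Not at hcon
    obtain ⟨⟨j₁, hj₁, g₁, hg₁⟩, ⟨j₂, hj₂, g₂, hg₂⟩⟩ := hcon
    rcases galois_trick hθ hj₁ hj₂
      (fun g => (hdich g).imp (fun h => hfixp g h j₁) (fun h => hfixq g h j₂)) with h | h
    · exact hg₁ (h g₁)
    · exact hg₂ (h g₂)
  have hνc : ν (x * y * x⁻¹ * y⁻¹) = 1 := by
    rw [map_mul, map_mul, map_mul, map_inv, map_inv, mul_comm (ν x) (ν y)]
    group
  have key : θ (x * y * x⁻¹ * y⁻¹) = θ 1 → ψ (x * y * x⁻¹ * y⁻¹) = ψ 1 := by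
    intro h
    rw [hθ1, hθdef, Pi.mul_apply, homFun_apply, MonoidHom.inv_apply, hνc] at h
    rw [hd, ← h]
    simp
  apply key
  rw [← Cfsg.Agent.Lib.Helper82.mem_charKer (hχ := hθc)]
  rcases hAB with hA | hA
  · have hker := char_eq_degree_of_rational hθc hp hθ1 hdp (rational_of_fixed θ hp hA)
    obtain ⟨s, hs⟩ := hx
    have hxk : x ∈ Cfsg.Agent.Lib.Helper82.charKer θ hθc := by
      rw [Cfsg.Agent.Lib.Helper82.mem_charKer, hker s x hs, hθ1]
    have h1 := mul_mem hxk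
      ((Cfsg.Agent.Lib.Helper82.charKer_normal θ hθc).conj_mem _ (inv_mem hxk) y)
    have e : x * (y * x⁻¹ * y⁻¹) = x * y * x⁻¹ * y⁻¹ := by group
    rwa [e] at h1
  · have hker := char_eq_degree_of_rational hθc hq hθ1 hdq (rational_of_fixed θ hq hA)
    obtain ⟨s, hs⟩ := hy
    have hyk : y ∈ Cfsg.Agent.Lib.Helper82.charKer θ hθc := by
      rw [Cfsg.Agent.Lib.Helper82.mem_charKer, hker s y hs, hθ1]
    exact mul_mem ((Cfsg.Agent.Lib.Helper82.charKer_normal θ hθc).conj_mem _ hyk x) (inv_mem hyk)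

end Cfsg.Agent.Lib.Helper4
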