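import Mathlib
import Cfsg.Prelude.Def_Characters
import Cfsg.Agent.Lib.Helper4.Blich2
import Cfsg.Agent.Lib.Helper4.CharDecomp
import Cfsg.Agent.Lib.Helper82.Codegree

set_option autoImplicit false
set_option linter.unusedSectionVars false

namespace Cfsg.Agent.Lib.Helper4

open scoped ComplexConjugate
open Cfsg.Agent.Lib.Helper19 (homFun exists_hom_of_linear homFun_apply)

universe u

section constituents

variable {G : Type u} [Group G] [Finite G]

/-- an element lying in the kernel of all irreducible constituents of a faithful character is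
trivial; the constituents have degree at most the degree of the character -/
theorem eq_one_of_forall_constituent {χ : G → ℂ} (hχ : IsCharacter G χ)
    (hfaith : ∀ g : G, χ g = χ 1 → g = 1) {n : ℕ} (hn : χ 1 = n) (c : G)
    (h : ∀ (ψ : G → ℂ) (d : ℕ), IsIrrCharacter G ψ → ψ 1 = d → 0 < d → d ≤ n → ψ c = ψ 1) :
    c = 1 := by
  classical
  have := Fintype.ofFinite G
  have := finite_irrCharacter (G := G)
  have := Fintype.ofFinite (IrrCharacter G)
  obtain ⟨m, -, hm⟩ := char_eq_sum_nat_irr hχ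
  choose d hd0 hd using fun ψ : IrrCharacter G => irr_apply_one ψ.2
  have hsum : n = ∑ ψ : IrrCharacter G, m ψ * d ψ := by
    have h1 := congrFun hm 1
    rw [hn, Finset.sum_apply] at h1
    simp only [Pi.smul_apply, smul_eq_mul, hd] at h1
    exact_mod_cast h1
  apply hfaith
  rw [hm, Finset.sum_apply, Finset.sum_apply]
  apply Finset.sum_congr rfl
  intro ψ _
  simp only [Pi.smul_apply, smul_eq_mul]
  by_cases h0 : m ψ = 0
  · rw [h0]; simp
  · rw [h ψ (d ψ) ψ.2 (hd ψ) (hd0 ψ)]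
    have h1 : m ψ * d ψ ≤ n := by
      rw [hsum]
      exact Finset.single_le_sum (f := fun ψ => m ψ * d ψ) (fun _ _ => Nat.zero_le _)
        (Finset.mem_univ ψ)
    calc d ψ ≤ m ψ * d ψ := Nat.le_mul_of_pos_left _ (Nat.pos_of_ne_zero h0)
      _ ≤ n := h1

/-- a `p`-group with a faithful character of degree `< p` is abelian -/
theorem comm_of_isPGroup {p : ℕ} (hp : p.Prime) (hG : IsPGroup p G) {χ : G → ℂ}
    (hχ : IsCharacter G χ) (hfaith : ∀ g : G, χ g = χ 1 → g = 1) {n : ℕ} (hn : χ 1 = n)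
    (hnp : n < p) (x y : G) : x * y = y * x := by
  have h1 : x * y * x⁻¹ * y⁻¹ = 1 := by
    apply eq_one_of_forall_constituent hχ hfaith hn
    intro ψ d hψ hd hd0 hdn
    have hdeg : charDegree ψ = d := by
      unfold charDegree
      rw [hd]; simp
    have hdvd := Cfsg.Agent.Lib.Helper82.isIrr_charDegree_dvd_card hψ
    rw [hdeg] at hdvd
    have : Fact p.Prime := ⟨hp⟩
    obtain ⟨k, hk⟩ := hG.exists_card_eq
    rw [hk] at hdvd
    obtain ⟨t, -, ht⟩ := (Nat.dvd_prime_pow hp).1 hdvd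
    have ht0 : t = 0 := by
      by_contra h0
      have : p ≤ d := by
        rw [ht]
        exact Nat.le_self_pow h0 p
      omega
    rw [ht0, pow_zero] at ht
    obtain ⟨f, rfl⟩ := exists_hom_of_linear ψ ⟨isCharacter_of_irr hψ, by rw [hd, ht]; simp⟩
    rw [homFun_apply, homFun_apply, map_mul, map_mul, map_mul, map_inv, map_inv, map_one,
      mul_comm (f x) (f y)]
    simp
  calc x * y = (x * y * x⁻¹ * y⁻¹) * (y * x) := by group
    _ = y * x := by rw [h1, one_mul]

theorem restrict_faithful {χ : G → ℂ} (hfaith : ∀ g : G, χ g = χ 1 → g = 1) (H : Subgroup G) :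
    ∀ g : H, (fun h : H => χ h) g = (fun h : H => χ h) 1 → g = 1 := by
  intro g hg
  apply Subtype.ext
  exact hfaith g hg

/-- (E1) -/
theorem not_dvd_index_centralizer {p : ℕ} [hp : Fact p.Prime] {χ : G → ℂ}
    (hχ : IsCharacter G χ) (hfaith : ∀ g : G, χ g = χ 1 → g = 1) {n : ℕ} (hn : χ 1 = n)
    (hnp : n < p) {x : G} (hx : ∃ s : ℕ, x ^ p ^ s = 1) :
    ¬ p ∣ (Subgroup.centralizer ({x} : Set G)).index := by
  obtain ⟨P, hP⟩ := (isPGroup_zpowers hx).exists_le_sylow
  have hle : (P : Subgroup G) ≤ Subgroup.centralizer ({x} : Set G) := by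
    intro y hy
    rw [Subgroup.mem_centralizer_singleton_iff]
    have hxP : x ∈ (P : Subgroup G) := hP (Subgroup.mem_zpowers x)
    have := comm_of_isPGroup hp.out P.isPGroup' (isCharacter_restrict hχ (P : Subgroup G))
      (restrict_faithful hfaith _) (n := n) hn hnp ⟨y, hy⟩ ⟨x, hxP⟩
    exact congrArg Subtype.val this
  intro h
  exact P.not_dvd_index (h.trans (Subgroup.index_dvd_of_le hle))

theorem index_centralizer_conj (x g : G) :
    (Subgroup.centralizer ({g⁻¹ * x * g} : Set G)).index =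
      (Subgroup.centralizer ({x} : Set G)).index := by
  rw [← card_isConj_eq_index, ← card_isConj_eq_index]
  apply Nat.card_congr
  apply Equiv.subtypeEquivRight
  intro y
  have h : IsConj x (g⁻¹ * x * g) := by
    rw [isConj_iff]
    exact ⟨g⁻¹, by group⟩
  exact ⟨fun h1 => h.trans h1, fun h1 => h.symm.trans h1⟩

end constituents

/-- the conclusion of Blichfeldt's theorem -/
def HasAbHall (n : ℕ) (G : Type u) [Group G] : Prop :=
  ∃ A : Subgroup G, (∀ x ∈ A, ∀ y ∈ A, x * y = y * x) ∧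
    (∀ q : ℕ, q.Prime → q ∣ Nat.card A → n + 1 < q) ∧ ∀ q : ℕ, q.Prime → q ∣ A.index → q ≤ n + 1

section induction

variable {G : Type u} [Group G] [Finite G]

/-- push an abelian Hall subgroup of a subgroup to the group -/
theorem exists_abelian_of_hasAbHall {n : ℕ} {H : Subgroup G} (h : HasAbHall n H) :
    ∃ A : Subgroup G, A ≤ H ∧ (∀ x ∈ A, ∀ y ∈ A, x * y = y * x) ∧
      (∀ q : ℕ, q.Prime → q ∣ Nat.card A → n + 1 < q) ∧
      ∀ q : ℕ, q.Prime → n + 1 < q → q ∣ A.index → q ∣ H.index := by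
  obtain ⟨A, hab, hπ, hidx⟩ := h
  refine ⟨A.map H.subtype, ?_, ?_, ?_, ?_⟩
  · rintro _ ⟨a, -, rfl⟩
    exact a.2
  · rintro _ ⟨a, ha, rfl⟩ _ ⟨b, hb, rfl⟩
    exact congrArg Subtype.val (hab a ha b hb)
  · intro q hq hdvd
    rw [Subgroup.card_map_of_injective H.subtype_injective] at hdvd
    exact hπ q hq hdvd
  · intro q hq hnq hdvd
    rw [Subgroup.index_map_subtype] at hdvd
    rcases (Nat.Prime.dvd_mul hq).1 hdvd with h1 | h1
    · have := hidx q hq h1
      omega
    · exact h1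

theorem hasAbHall_of_subgroup {n : ℕ} {H : Subgroup G} (h : HasAbHall n H)
    (hH : ∀ q : ℕ, q.Prime → n + 1 < q → ¬ q ∣ H.index) : HasAbHall n G := by
  obtain ⟨A, -, hab, hπ, hidx⟩ := exists_abelian_of_hasAbHall h
  refine ⟨A, hab, hπ, ?_⟩
  intro q hq hdvd
  by_contra hcon
  exact hH q hq (by omega) (hidx q hq (by omega) hdvd)

theorem le_centralizer_of_abelian {A : Subgroup G} (hab : ∀ x ∈ A, ∀ y ∈ A, x * y = y * x)
    {x : G} (hx : x ∈ A) : A ≤ Subgroup.centralizer ({x} : Set G) := by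
  intro y hy
  rw [Subgroup.mem_centralizer_singleton_iff]
  exact hab y hy x hx

theorem centralizer_ne_top {x : G} (hx : x ∉ Subgroup.center G) :
    Subgroup.centralizer ({x} : Set G) ≠ ⊤ := by
  intro h
  rw [Subgroup.centralizer_eq_top_iff_subset] at h
  exact hx (h rfl)

theorem conj_pow_eq_one {x g : G} {m : ℕ} (h : x ^ m = 1) : (g⁻¹ * x * g) ^ m = 1 := by
  have : g⁻¹ * x * g = g⁻¹ * x * g⁻¹⁻¹ := by rw [inv_inv]
  rw [this, conj_pow, h]
  group

theorem conj_mem_center_iff {x g : G} :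
    g⁻¹ * x * g ∈ Subgroup.center G ↔ x ∈ Subgroup.center G := by
  constructor
  · intro h
    have := (Subgroup.center G).normal_of_characteristic.conj_mem _ h g
    have e : g * (g⁻¹ * x * g) * g⁻¹ = x := by group
    rwa [e] at this
  · intro h
    have := (Subgroup.center G).normal_of_characteristic.conj_mem _ h g⁻¹
    rwa [inv_inv] at this

/-- (F1) -/
theorem F1_of_dvd {n : ℕ} {χ : G → ℂ} (hχ : IsCharacter G χ)
    (hfaith : ∀ g : G, χ g = χ 1 → g = 1) (hn : χ 1 = n)
    (IH : ∀ H : Subgroup G, H ≠ ⊤ → HasAbHall n H)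
    {p q : ℕ} [hp : Fact p.Prime] [hq : Fact q.Prime] (hnp : n + 1 < p) (hnq : n + 1 < q)
    {x₀ : G} (hx₀ : ∃ s : ℕ, x₀ ^ p ^ s = 1)
    (hdvd : q ∣ (Subgroup.centralizer ({x₀} : Set G)).index)
    (x y : G) (hx : ∃ s : ℕ, x ^ p ^ s = 1) (hy : ∃ s : ℕ, y ^ q ^ s = 1) (hxy : Commute x y) :
    x ∈ Subgroup.center G ∨ y ∈ Subgroup.center G := by
  by_contra hcon
  push Not at hcon
  obtain ⟨hxc, hyc⟩ := hcon
  -- first step: inside `C(x)`
  obtain ⟨A₁, hab₁, -, hidx₁⟩ := IH _ (centralizer_ne_top hxc)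
  have hyH : y ∈ Subgroup.centralizer ({x} : Set G) := by
    rw [Subgroup.mem_centralizer_singleton_iff]
    exact hxy.eq.symm
  have hy₁ : ∃ s : ℕ, (⟨y, hyH⟩ : Subgroup.centralizer ({x} : Set G)) ^ q ^ s = 1 := by
    obtain ⟨s, hs⟩ := hy
    exact ⟨s, Subtype.ext (by simpa using hs)⟩
  obtain ⟨h, hh⟩ := exists_conj_mem_of_not_dvd_index A₁ hy₁
    (fun hd => by have := hidx₁ q hq.out hd; omega)
  set y' : G := (h : G)⁻¹ * y * h with hy'
  have hy'A : y' ∈ A₁.map (Subgroup.centralizer ({x} : Set G)).subtype := ⟨_, hh, rfl⟩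
  have hab₁' : ∀ a ∈ A₁.map (Subgroup.centralizer ({x} : Set G)).subtype,
      ∀ b ∈ A₁.map (Subgroup.centralizer ({x} : Set G)).subtype, a * b = b * a := by
    rintro _ ⟨a, ha, rfl⟩ _ ⟨b, hb, rfl⟩
    exact congrArg Subtype.val (hab₁ a ha b hb)
  have hy'q : ∃ s : ℕ, y' ^ q ^ s = 1 := by
    obtain ⟨s, hs⟩ := hy
    exact ⟨s, conj_pow_eq_one hs⟩
  have hy'c : y' ∉ Subgroup.center G := fun hc => hyc (conj_mem_center_iff.1 hc)
  have hp₂ : ¬ p ∣ (Subgroup.centralizer ({y'} : Set G)).index := by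
    intro hd
    have h1 := hd.trans (Subgroup.index_dvd_of_le (le_centralizer_of_abelian hab₁' hy'A))
    rw [Subgroup.index_map_subtype] at h1
    rcases (Nat.Prime.dvd_mul hp.out).1 h1 with h2 | h2
    · have := hidx₁ p hp.out h2
      omega
    · exact not_dvd_index_centralizer hχ hfaith hn (by omega) hx h2
  have hq₂ : ¬ q ∣ (Subgroup.centralizer ({y'} : Set G)).index :=
    not_dvd_index_centralizer hχ hfaith hn (by omega) hy'q
  -- second step: inside `C(y')`
  obtain ⟨A₂, -, hab₂, -, hidx₂⟩ := exists_abelian_of_hasAbHall (IH _ (centralizer_ne_top hy'c))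
  obtain ⟨g, hg⟩ := exists_conj_mem_of_not_dvd_index A₂ hx₀
    (fun hd => hp₂ (hidx₂ p hp.out hnp hd))
  have h3 := Subgroup.index_dvd_of_le (le_centralizer_of_abelian hab₂ hg)
  rw [index_centralizer_conj] at h3
  exact hq₂ (hidx₂ q hq.out hnq (hdvd.trans h3))

/-- the central case -/
theorem hasAbHall_of_central {n : ℕ}
    (h : ∀ p : ℕ, p.Prime → n + 1 < p → ∀ x : G, (∃ s : ℕ, x ^ p ^ s = 1) →
      x ∈ Subgroup.center G) : HasAbHall n G := by
  let A : Subgroup G :=
    { carrier := {z | z ∈ Subgroup.center G ∧ ∀ q : ℕ, q.Prime → q ∣ orderOf z → n + 1 < q}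
      one_mem' := ⟨Subgroup.one_mem _, fun q hq hd => by
        rw [orderOf_one] at hd
        exact absurd (Nat.dvd_one.1 hd) hq.one_lt.ne'⟩
      mul_mem' := by
        rintro a b ⟨ha, ha'⟩ ⟨hb, hb'⟩
        refine ⟨Subgroup.mul_mem _ ha hb, fun q hq hd => ?_⟩
        have hc : Commute a b := (Subgroup.mem_center_iff.1 ha b).symm
        have h1 := hd.trans hc.orderOf_mul_dvd_lcm
        have h2 := h1.trans (Nat.lcm_dvd_mul _ _)
        rcases (Nat.Prime.dvd_mul hq).1 h2 with h3 | h3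
        · exact ha' q hq h3
        · exact hb' q hq h3
      inv_mem' := by
        rintro a ⟨ha, ha'⟩
        exact ⟨Subgroup.inv_mem _ ha, fun q hq hd => ha' q hq (by rwa [orderOf_inv] at hd)⟩ }
  refine ⟨A, ?_, ?_, ?_⟩
  · intro x hx y _
    exact (Subgroup.mem_center_iff.1 hx.1 y).symm
  · intro q hq hd
    have : Fact q.Prime := ⟨hq⟩
    obtain ⟨z, hz⟩ := exists_prime_orderOf_dvd_card' q hd
    have h1 := z.2.2 q hq
    rw [← Subgroup.orderOf_coe, ] at hz
    exact h1 (by rw [hz])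
  · intro q hq hd
    by_contra hcon
    have : Fact q.Prime := ⟨hq⟩
    obtain ⟨Q⟩ : Nonempty (Sylow q G) := inferInstance
    have hle : (Q : Subgroup G) ≤ A := by
      intro z hz
      obtain ⟨s, hs⟩ := Q.isPGroup' ⟨z, hz⟩
      have hs' : z ^ q ^ s = 1 := by
        have := congrArg Subtype.val hs
        simpa using this
      refine ⟨h q hq (by omega) z ⟨s, hs'⟩, fun r hr hd' => ?_⟩
      have h1 := hd'.trans (orderOf_dvd_of_pow_eq_one hs')
      have h2 := (Nat.prime_dvd_prime_iff_eq hr hq).1 (hr.dvd_of_dvd_pow h1)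
      omega
    exact Q.not_dvd_index (hd.trans (Subgroup.index_dvd_of_le hle))

/-- all `p`-elements commute with all `q`-elements under (F1) -/
theorem comm_of_F1 {n : ℕ} {χ : G → ℂ} (hχ : IsCharacter G χ)
    (hfaith : ∀ g : G, χ g = χ 1 → g = 1) (hn : χ 1 = n)
    {p q : ℕ} (hp : p.Prime) (hq : q.Prime) (hnp : n + 1 < p) (hnq : n + 1 < q)
    (hF : ∀ x y : G, (∃ s : ℕ, x ^ p ^ s = 1) → (∃ s : ℕ, y ^ q ^ s = 1) → Commute x y →
      x ∈ Subgroup.center G ∨ y ∈ Subgroup.center G)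
    (x y : G) (hx : ∃ s : ℕ, x ^ p ^ s = 1) (hy : ∃ s : ℕ, y ^ q ^ s = 1) : x * y = y * x := by
  have h1 : x * y * x⁻¹ * y⁻¹ = 1 := by
    apply eq_one_of_forall_constituent hχ hfaith hn
    intro ψ d hψ hd _ hdn
    exact comm_mem_ker_of_F1 hp hq hψ hd (by omega) (by omega) hF x y hx hy
  calc x * y = (x * y * x⁻¹ * y⁻¹) * (y * x) := by group
    _ = y * x := by rw [h1, one_mul]

theorem hasAbHall_step {n : ℕ} {χ : G → ℂ} (hχ : IsCharacter G χ)
    (hfaith : ∀ g : G, χ g = χ 1 → g = 1) (hn : χ 1 = n)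
    (IH : ∀ H : Subgroup G, H ≠ ⊤ → HasAbHall n H) : HasAbHall n G := by
  by_cases hall : ∀ p : ℕ, p.Prime → n + 1 < p → ∀ x : G, (∃ s : ℕ, x ^ p ^ s = 1) →
      x ∈ Subgroup.center G
  · exact hasAbHall_of_central hall
  push Not at hall
  obtain ⟨p, hp, hnp, x₀, hx₀, hx₀c⟩ := hall
  have : Fact p.Prime := ⟨hp⟩
  apply hasAbHall_of_subgroup (IH _ (centralizer_ne_top hx₀c))
  intro q hq hnq hdvd
  have : Fact q.Prime := ⟨hq⟩
  have hF := F1_of_dvd hχ hfaith hn IH hnp hnq hx₀ hdvd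
  have hcomm := comm_of_F1 hχ hfaith hn hp hq hnp hnq hF
  obtain ⟨Q⟩ : Nonempty (Sylow q G) := inferInstance
  have hle : (Q : Subgroup G) ≤ Subgroup.centralizer ({x₀} : Set G) := by
    intro z hz
    obtain ⟨s, hs⟩ := Q.isPGroup' ⟨z, hz⟩
    have hs' : z ^ q ^ s = 1 := by
      have := congrArg Subtype.val hs
      simpa using this
    rw [Subgroup.mem_centralizer_singleton_iff]
    exact (hcomm x₀ z hx₀ ⟨s, hs'⟩).symm
  exact Q.not_dvd_index (hdvd.trans (Subgroup.index_dvd_of_le hle))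

end induction

/-- Blichfeldt: abelian Hall subgroup for the primes `> n + 1` -/
theorem hasAbHall_of_faithful (n : ℕ) : ∀ (N : ℕ) (G : Type u) [Group G] [Finite G],
    Nat.card G = N → ∀ χ : G → ℂ, IsCharacter G χ → (∀ g : G, χ g = χ 1 → g = 1) → χ 1 = n →
    HasAbHall n G := by
  intro N
  induction N using Nat.strong_induction_on with
  | _ N ih =>
    intro G _ _ hN χ hχ hfaith hn
    apply hasAbHall_step hχ hfaith hn
    intro H hH
    have hlt : Nat.card H < N := by
      rw [← hN]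
      by_contra hcon
      exact hH (Subgroup.eq_top_of_le_card H (by omega))
    exact ih _ hlt H rfl _ (isCharacter_restrict hχ H) (restrict_faithful hfaith H) hn

end Cfsg.Agent.Lib.Helper4
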