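import Mathlib
import Cfsg.Prelude.Def_Characters
import Cfsg.Prelude.Def_OddOrderChar
import Cfsg.Agent.Lib.Helper4.FixedChar
import Cfsg.Agent.Lib.Helper4.CharInner
import Cfsg.Agent.Lib.Helper32.DadeCount
import Cfsg.Agent.Lib.Helper32.GenChar

set_option autoImplicit false

namespace Cfsg.Agent.Lib.Helper4

open Cfsg.Agent.Lib.Helper32
open scoped ComplexConjugate
open Classical

universe u

section general

variable {G : Type u} [Group G]

/-- conjugate of a finite set -/
noncomputable def cjS (x : G) (B : Finset G) : Finset G := B.image (fun b => x * b * x⁻¹)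

theorem mem_cjS {x y : G} {B : Finset G} : y ∈ cjS x B ↔ x⁻¹ * y * x ∈ B := by
  unfold cjS
  rw [Finset.mem_image]
  constructor
  · rintro ⟨b, hb, rfl⟩
    have : x⁻¹ * (x * b * x⁻¹) * x = b := by group
    rwa [this]
  · intro h
    exact ⟨_, h, by group⟩

theorem conj_mem_cjS {x b : G} {B : Finset G} (hb : b ∈ B) : x * b * x⁻¹ ∈ cjS x B :=
  Finset.mem_image_of_mem _ hb

theorem cjS_one (B : Finset G) : cjS 1 B = B := by
  ext y
  rw [mem_cjS]
  simp

theorem cjS_mul (x y : G) (B : Finset G) : cjS (x * y) B = cjS x (cjS y B) := by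
  ext z
  rw [mem_cjS, mem_cjS, mem_cjS]
  have : (x * y)⁻¹ * z * (x * y) = y⁻¹ * (x⁻¹ * z * x) * y := by group
  rw [this]

theorem card_cjS (x : G) (B : Finset G) : (cjS x B).card = B.card := by
  unfold cjS
  apply Finset.card_image_of_injective
  intro b c h
  simpa using h

theorem cjS_nonempty {x : G} {B : Finset G} (h : B.Nonempty) : (cjS x B).Nonempty :=
  h.image _

/-- a type synonym carrying the conjugation action -/
def FS (G : Type u) : Type u := Finset G

noncomputable instance [Fintype G] : Fintype (FS G) := inferInstanceAs (Fintype (Finset G))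

noncomputable instance fsAction (L : Subgroup G) : MulAction L (FS G) where
  smul x B := cjS (x : G) B
  one_smul B := cjS_one B
  mul_smul x y B := cjS_mul (x : G) (y : G) B

theorem fs_smul_def (L : Subgroup G) (x : L) (B : FS G) : x • B = cjS (x : G) B := rfl

/-- average of `χ` over the coset `l K` -/
noncomputable def avgK [Fintype G] (χ : G → ℂ) (K : Subgroup G) (l : G) : ℂ :=
  (Nat.card K : ℂ)⁻¹ * ∑ h : K, χ (l * h)

theorem avgK_map_conj [Fintype G] {χ : G → ℂ} (hχ : IsClassFunction G χ) (K : Subgroup G)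
    (x l : G) : avgK χ (K.map (MulAut.conj x).toMonoidHom) (x * l * x⁻¹) = avgK χ K l := by
  unfold avgK
  rw [Subgroup.card_map_of_injective (MulAut.conj x).injective]
  congr 1
  rw [← Equiv.sum_comp (K.equivMapOfInjective (MulAut.conj x).toMonoidHom
    (MulAut.conj x).injective).toEquiv]
  apply Finset.sum_congr rfl
  intro h _
  have h1 : ((K.equivMapOfInjective (MulAut.conj x).toMonoidHom
    (MulAut.conj x).injective).toEquiv h : G) = x * h * x⁻¹ := rfl
  rw [h1]
  have h2 : x * l * x⁻¹ * (x * h * x⁻¹) = x * (l * h) * x⁻¹ := by group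
  rw [h2, hχ]

theorem sum_ite_mem_subgroup {L : Type*} [Group L] [Fintype L] (S : Subgroup L) (F : L → ℂ) :
    ∑ l, (if l ∈ S then F l else 0) = ∑ t : S, F t := by
  rw [← Finset.sum_filter]
  exact Finset.sum_subtype (Finset.univ.filter (· ∈ S)) (by simp) F

end general

end Cfsg.Agent.Lib.Helper4
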