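import Mathlib
import Cfsg.Prelude.Def_Characters
import Cfsg.Prelude.Def_OddOrderChar
import Cfsg.Agent.Lib.Helper4.DadeVirt

set_option autoImplicit false

namespace Cfsg.Agent.Lib.Helper4

open Cfsg.Agent.Lib.Helper32
open scoped ComplexConjugate
open Classical

universe u

section dade

variable {G : Type u} [Group G] {A : Set G} {L : Subgroup G} {H : G → Subgroup G}

/-- intersection of the `H b`, `b ∈ B` -/
def HB (H : G → Subgroup G) (B : Finset G) : Subgroup G := ⨅ b ∈ B, H b

theorem mem_HB {B : Finset G} {x : G} : x ∈ HB H B ↔ ∀ b ∈ B, x ∈ H b := by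
  unfold HB
  simp [Subgroup.mem_iInf]

theorem mem_map_conj {K : Subgroup G} {x y : G} :
    y ∈ K.map (MulAut.conj x).toMonoidHom ↔ x⁻¹ * y * x ∈ K := by
  rw [Subgroup.mem_map]
  constructor
  · rintro ⟨k, hk, rfl⟩
    have : x⁻¹ * ((MulAut.conj x).toMonoidHom k) * x = k := by
      change x⁻¹ * (x * k * x⁻¹) * x = k
      group
    rwa [this]
  · intro h
    refine ⟨_, h, ?_⟩
    change x * (x⁻¹ * y * x) * x⁻¹ = y
    group

theorem cjS_subset (hD : DadeHypothesis A L H) {x : G} (hx : x ∈ L) {B : Finset G}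
    (hB : (B : Set G) ⊆ A) : ((cjS x B : Finset G) : Set G) ⊆ A := by
  intro y hy
  rw [Finset.mem_coe, mem_cjS] at hy
  have := hD.conj_mem x hx _ (hB hy)
  have e : x * (x⁻¹ * y * x) * x⁻¹ = y := by group
  rwa [e] at this

theorem HB_cjS (hD : DadeHypothesis A L H) {x : G} (hx : x ∈ L) {B : Finset G}
    (hB : (B : Set G) ⊆ A) : HB H (cjS x B) = (HB H B).map (MulAut.conj x).toMonoidHom := by
  ext y
  rw [mem_map_conj, mem_HB, mem_HB]
  constructor
  · intro h b hb
    have h1 := h _ (conj_mem_cjS (x := x) hb)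
    rw [dade_H_conj hD (hB hb) hx, mem_map_conj] at h1
    exact h1
  · intro h c hc
    rw [mem_cjS] at hc
    have h1 := h _ hc
    have e : c = x * (x⁻¹ * c * x) * x⁻¹ := by group
    rw [e, dade_H_conj hD (hB hc) hx, mem_map_conj]
    exact h1

theorem HB_singleton (a : G) : HB H {a} = H a := by
  ext y
  rw [mem_HB]
  simp

theorem HB_le {B : Finset G} {b : G} (hb : b ∈ B) : HB H B ≤ H b := fun _ hx => mem_HB.1 hx b hb

theorem HB_insert_eq (hD : DadeHypothesis A L H) {a : G} (ha : a ∈ A) {B : Finset G}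
    (hB : (B : Set G) ⊆ A) (hne : B.Nonempty) :
    HB H (insert a B) = HB H B ⊓ Subgroup.centralizer ({a} : Set G) := by
  ext y
  rw [Subgroup.mem_inf, mem_HB, mem_HB]
  constructor
  · intro h
    exact ⟨fun b hb => h b (Finset.mem_insert_of_mem hb),
      hD.le_centralizer a ha (h a (Finset.mem_insert_self a B))⟩
  · rintro ⟨h1, h2⟩ b hb
    rcases Finset.mem_insert.1 hb with rfl | hb
    · obtain ⟨c, hc⟩ := hne
      exact dade_mem_H_of_pow hD ha h2 (pow_card_sub (h1 c hc)) (hD.coprime c (hB hc) b ha)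
    · exact h1 b hb

theorem mem_normalizer_HB (hD : DadeHypothesis A L H) {a : G} (ha : a ∈ L) {B : Finset G}
    (hB : (B : Set G) ⊆ A) (hfix : cjS a B = B) :
    a ∈ Subgroup.normalizer (HB H B : Set G) := by
  have h1 := HB_cjS hD ha hB
  rw [hfix] at h1
  rw [Subgroup.mem_normalizer_iff]
  intro h
  conv_rhs => rw [h1, mem_map_conj]
  have e : a⁻¹ * (a * h * a⁻¹) * a = h := by group
  rw [e]

theorem coprime_orderOf_card_HB [Finite G] (hD : DadeHypothesis A L H) {a : G} (ha : a ∈ A)
    {B : Finset G} (hB : (B : Set G) ⊆ A) (hne : B.Nonempty) :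
    Nat.Coprime (orderOf a) (Nat.card (HB H B)) := by
  obtain ⟨b, hb⟩ := hne
  have h1 := hD.coprime b (hB hb) a ha
  have h2 : orderOf a ∣ Nat.card ↥(L ⊓ Subgroup.centralizer ({a} : Set G)) :=
    orderOf_dvd_of_pow_eq_one (pow_card_sub (dade_mem_CL hD ha))
  have h3 : Nat.card (HB H B) ∣ Nat.card (H b) := Subgroup.card_dvd_of_le (HB_le hb)
  exact (Nat.Coprime.coprime_dvd_left h3 (Nat.Coprime.coprime_dvd_right h2 h1)).symm

theorem avgK_insert [Fintype G] (hD : DadeHypothesis A L H) {χ : G → ℂ}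
    (hχ : IsClassFunction G χ) {a : G} (ha : a ∈ A) {B : Finset G}
    (hB : (B : Set G) ⊆ A) (hne : B.Nonempty) (hfix : cjS a B = B) :
    avgK χ (HB H (insert a B)) a = avgK χ (HB H B) a := by
  rw [HB_insert_eq hD ha hB hne]
  unfold avgK
  exact (avg_coset_eq (HB H B) a (mem_normalizer_HB hD (hD.subset ha) hB hfix)
    (coprime_orderOf_card_HB hD ha hB hne) hχ).symm

theorem cjS_insert_self {a : G} {B : Finset G} (hfix : cjS a B = B) :
    cjS a (insert a B) = insert a B := by
  ext y
  rw [mem_cjS, Finset.mem_insert, Finset.mem_insert, ← mem_cjS, hfix]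
  have : a⁻¹ * y * a = a ↔ y = a := by
    constructor
    · intro h
      have : y = a * (a⁻¹ * y * a) * a⁻¹ := by group
      rw [this, h]; group
    · rintro rfl
      group
  rw [this]

theorem cjS_erase_self {a : G} {B : Finset G} (hfix : cjS a B = B) :
    cjS a (B.erase a) = B.erase a := by
  ext y
  rw [mem_cjS, Finset.mem_erase, Finset.mem_erase, ← mem_cjS, hfix]
  have : a⁻¹ * y * a = a ↔ y = a := by
    constructor
    · intro h
      have : y = a * (a⁻¹ * y * a) * a⁻¹ := by group
      rw [this, h]; group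
    · rintro rfl
      group
  rw [Ne, Ne, this]

/-- admissible subsets -/
def dadeP (A : Set G) (l : G) (B : Finset G) : Prop :=
  B.Nonempty ∧ (B : Set G) ⊆ A ∧ cjS l B = B

/-- the term attached to `B` -/
noncomputable def dadeT [Fintype G] (H : G → Subgroup G) (χ : G → ℂ) (l : G) (B : Finset G) : ℂ :=
  (-1 : ℂ) ^ (B.card + 1) * avgK χ (HB H B) l

/-- the alternating sum -/
noncomputable def dadeXi [Fintype G] (A : Set G) (H : G → Subgroup G) (χ : G → ℂ) (l : G) : ℂ :=
  ∑ B : Finset G, if dadeP A l B then dadeT H χ l B else 0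

theorem dadeP_insert {a : G} (ha : a ∈ A) {B : Finset G} (h : dadeP A a B) :
    dadeP A a (insert a B) := by
  refine ⟨Finset.insert_nonempty a B, ?_, cjS_insert_self h.2.2⟩
  intro y hy
  rcases Finset.mem_insert.1 (Finset.mem_coe.1 hy) with rfl | hy
  · exact ha
  · exact h.2.1 hy

theorem dadeP_erase {a : G} {B : Finset G} (h : dadeP A a B) (hne : B ≠ {a}) :
    dadeP A a (B.erase a) := by
  refine ⟨?_, ?_, cjS_erase_self h.2.2⟩
  · by_contra hcon
    rw [Finset.not_nonempty_iff_eq_empty, Finset.erase_eq_empty_iff] at hcon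
    rcases hcon with hcon | hcon
    · exact h.1.ne_empty hcon
    · exact hne hcon
  · intro y hy
    exact h.2.1 (Finset.mem_of_mem_erase (Finset.mem_coe.1 hy))

theorem dadeT_insert [Fintype G] (hD : DadeHypothesis A L H) {χ : G → ℂ}
    (hχ : IsClassFunction G χ) {a : G} (ha : a ∈ A) {B : Finset G} (h : dadeP A a B)
    (haB : a ∉ B) : dadeT H χ a (insert a B) + dadeT H χ a B = 0 := by
  unfold dadeT
  rw [avgK_insert hD hχ ha h.2.1 h.1 h.2.2, Finset.card_insert_of_notMem haB]
  ring

theorem dadeXi_apply [Fintype G] (hD : DadeHypothesis A L H) {χ : G → ℂ}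
    (hχ : IsClassFunction G χ) {a : G} (ha : a ∈ A) :
    dadeXi A H χ a = avgK χ (H a) a := by
  unfold dadeXi
  rw [← Finset.sum_filter]
  have hmem : ({a} : Finset G) ∈ Finset.univ.filter (fun B => dadeP A a B) := by
    rw [Finset.mem_filter]
    refine ⟨Finset.mem_univ _, Finset.singleton_nonempty a, by simpa using ha, ?_⟩
    ext y
    rw [mem_cjS, Finset.mem_singleton, Finset.mem_singleton]
    constructor
    · intro h
      have : y = a * (a⁻¹ * y * a) * a⁻¹ := by group
      rw [this, h]; group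
    · rintro rfl
      group
  rw [← Finset.add_sum_erase _ _ hmem]
  have h0 : ∑ B ∈ (Finset.univ.filter (fun B => dadeP A a B)).erase {a}, dadeT H χ a B = 0 := by
    apply Finset.sum_involution (fun B _ => if a ∈ B then B.erase a else insert a B)
    · intro B hB
      rw [Finset.mem_erase, Finset.mem_filter] at hB
      by_cases haB : a ∈ B
      · simp only [if_pos haB]
        have h1 := dadeT_insert hD hχ ha (dadeP_erase hB.2.2 hB.1) (Finset.notMem_erase a B)
        rwa [Finset.insert_erase haB] at h1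
      · simp only [if_neg haB]
        rw [add_comm]
        exact dadeT_insert hD hχ ha hB.2.2 haB
    · intro B hB _
      by_cases haB : a ∈ B
      · simp only [if_pos haB]
        intro h
        rw [← h] at haB
        exact Finset.notMem_erase a B haB
      · simp only [if_neg haB]
        intro h
        rw [← h] at haB
        exact haB (Finset.mem_insert_self a B)
    · intro B hB
      by_cases haB : a ∈ B
      · simp only [if_pos haB, Finset.notMem_erase, if_false]
        exact Finset.insert_erase haB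
      · simp only [if_neg haB, Finset.mem_insert_self, if_true]
        exact Finset.erase_insert haB
    · intro B hB
      rw [Finset.mem_erase, Finset.mem_filter] at hB
      rw [Finset.mem_erase, Finset.mem_filter]
      by_cases haB : a ∈ B
      · simp only [if_pos haB]
        refine ⟨?_, Finset.mem_univ _, dadeP_erase hB.2.2 hB.1⟩
        intro h
        have : a ∈ B.erase a := by rw [h]; exact Finset.mem_singleton_self a
        exact Finset.notMem_erase a B this
      · simp only [if_neg haB]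
        refine ⟨?_, Finset.mem_univ _, dadeP_insert ha hB.2.2⟩
        intro h
        obtain ⟨b, hb⟩ := hB.2.2.1
        have : b ∈ insert a B := Finset.mem_insert_of_mem hb
        rw [h, Finset.mem_singleton] at this
        exact haB (this ▸ hb)
  rw [h0, add_zero]
  unfold dadeT
  rw [HB_singleton, Finset.card_singleton]
  norm_num

theorem cjS_injective (x : G) : Function.Injective (cjS x) := by
  intro B C h
  have := congrArg (cjS x⁻¹) h
  rwa [← cjS_mul, ← cjS_mul, inv_mul_cancel, cjS_one, cjS_one] at this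

theorem dadeP_conj (hD : DadeHypothesis A L H) {x l : G} (hx : x ∈ L) {B : Finset G} :
    dadeP A (x * l * x⁻¹) (cjS x B) ↔ dadeP A l B := by
  unfold dadeP
  have h1 : (cjS x B).Nonempty ↔ B.Nonempty := by
    unfold cjS
    exact Finset.image_nonempty
  have h2 : ((cjS x B : Finset G) : Set G) ⊆ A ↔ (B : Set G) ⊆ A := by
    constructor
    · intro h
      have := cjS_subset hD (L.inv_mem hx) h
      rwa [← cjS_mul, inv_mul_cancel, cjS_one] at this
    · exact cjS_subset hD hx
  have h3 : cjS (x * l * x⁻¹) (cjS x B) = cjS x B ↔ cjS l B = B := by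
    rw [← cjS_mul, inv_mul_cancel_right, cjS_mul]
    exact (cjS_injective x).eq_iff
  rw [h1, h2, h3]

theorem dadeT_conj [Fintype G] (hD : DadeHypothesis A L H) {χ : G → ℂ}
    (hχ : IsClassFunction G χ) {x : G} (l : G) (hx : x ∈ L) {B : Finset G}
    (hB : (B : Set G) ⊆ A) : dadeT H χ (x * l * x⁻¹) (cjS x B) = dadeT H χ l B := by
  unfold dadeT
  rw [card_cjS, HB_cjS hD hx hB, avgK_map_conj hχ]

/-- the weight of a subset -/
noncomputable def dadeW [Fintype G] [Fintype L] (A : Set G) (H : G → Subgroup G) (χ : G → ℂ)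
    (α : L → ℂ) (B : Finset G) : ℂ :=
  ∑ l : L, α l * conj (if dadeP A (l : G) B then dadeT H χ l B else 0)

theorem dadeW_conj [Fintype G] [Fintype L] (hD : DadeHypothesis A L H) {χ : G → ℂ}
    (hχ : IsClassFunction G χ) {α : L → ℂ} (hα : IsClassFunction L α) (x : L) (B : Finset G) :
    dadeW A H χ α (cjS (x : G) B) = dadeW A H χ α B := by
  unfold dadeW
  rw [← Equiv.sum_comp (MulAut.conj x).toEquiv]
  apply Finset.sum_congr rfl
  intro l _
  have e : ((MulAut.conj x).toEquiv l) = x * l * x⁻¹ := rfl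
  rw [e, hα]
  have e2 : ((x * l * x⁻¹ : L) : G) = (x : G) * l * (x : G)⁻¹ := rfl
  rw [e2]
  by_cases h : dadeP A (l : G) B
  · rw [if_pos h, if_pos ((dadeP_conj hD x.2).2 h), dadeT_conj hD hχ _ x.2 h.2.1]
  · rw [if_neg h, if_neg (fun h' => h ((dadeP_conj hD x.2).1 h'))]

/-- cast -/
def fsOf (B : Finset G) : FS G := B

/-- cast -/
def fsVal (B : FS G) : Finset G := B

theorem dadeW_int [Fintype G] [Fintype L] (hD : DadeHypothesis A L H) {χ : G → ℂ}
    (hχ : IsCharacter G χ) {α : L → ℂ} (hα : IsGeneralizedCharacter L α) (B : Finset G) :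
    ∃ z : ℤ, dadeW A H χ α B = (Nat.card (MulAction.stabilizer L (fsOf B)) : ℂ) * z := by
  by_cases hB : B.Nonempty ∧ (B : Set G) ⊆ A
  swap
  · refine ⟨0, ?_⟩
    unfold dadeW
    rw [Int.cast_zero, mul_zero]
    apply Finset.sum_eq_zero
    intro l _
    rw [if_neg (fun h => hB ⟨h.1, h.2.1⟩), map_zero, mul_zero]
  let S : Subgroup L := MulAction.stabilizer L (fsOf B)
  have hS : ∀ l : L, l ∈ S ↔ cjS (l : G) B = B := fun l => Iff.rfl
  have hP : ∀ l : L, dadeP A (l : G) B ↔ l ∈ S := fun l =>
    ⟨fun h => (hS l).2 h.2.2, fun h => ⟨hB.1, hB.2, (hS l).1 h⟩⟩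
  have hψ : IsCharacter S (fun t : S => avgK χ (HB H B) ((t : L) : G)) := by
    apply isCharacter_avg (L.subtype.comp S.subtype) (HB H B) _ hχ
    intro t k hk
    have h1 := mem_normalizer_HB hD (t : L).2 hB.2 ((hS t).1 t.2)
    have h2 := (Subgroup.mem_normalizer_iff.1 (Subgroup.inv_mem _ h1) k).1 hk
    rwa [inv_inv] at h2
  have hαS : IsGeneralizedCharacter S (fun t : S => α t) := by
    obtain ⟨a, b, ha, hb, rfl⟩ := hα
    exact ⟨_, _, isCharacter_restrict ha S, isCharacter_restrict hb S, rfl⟩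
  obtain ⟨n, hn⟩ := genChar_inner_int hαS (genChar_of_char hψ)
  refine ⟨(-1) ^ (B.card + 1) * n, ?_⟩
  have hS0 : (Nat.card S : ℂ) ≠ 0 := by exact_mod_cast Nat.card_pos.ne'
  have h1 : dadeW A H χ α B = ∑ t : S, α t * conj (dadeT H χ ((t : L) : G) B) := by
    refine Eq.trans ?_ (sum_ite_mem_subgroup S (fun l => α l * conj (dadeT H χ (l : G) B)))
    unfold dadeW
    apply Finset.sum_congr rfl
    intro l _
    by_cases h : l ∈ S
    · rw [if_pos h, if_pos ((hP l).2 h)]
    · rw [if_neg h, if_neg (fun h' => h ((hP l).1 h')), map_zero, mul_zero]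
  rw [h1]
  unfold classInner at hn
  have h2 : ∑ t : S, α t * conj (avgK χ (HB H B) ((t : L) : G)) = (Nat.card S : ℂ) * n := by
    rw [← hn, ← mul_assoc, mul_inv_cancel₀ hS0, one_mul]
  push_cast
  rw [mul_left_comm, ← h2, Finset.mul_sum]
  apply Finset.sum_congr rfl
  intro t _
  unfold dadeT
  rw [map_mul, map_pow, map_neg, map_one]
  ring

theorem exists_int_classInner_dadeXi [Fintype G] [Fintype L] (hD : DadeHypothesis A L H)
    {χ : G → ℂ} (hχ : IsCharacter G χ) {α : L → ℂ} (hα : IsGeneralizedCharacter L α) :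
    ∃ Z : ℤ, classInner α (fun l : L => dadeXi A H χ l) = Z := by
  obtain ⟨Z, hZ⟩ := exists_int_sum_eq_card_mul (L := L) (X := FS G)
    (fun B => dadeW A H χ α (fsVal B))
    (fun l B => dadeW_conj hD (Cfsg.Agent.Lib.Helper20.isClassFunction_of_isCharacter hχ)
      (genChar_isClassFunction hα) l (fsVal B))
    (fun B => dadeW_int hD hχ hα (fsVal B))
  refine ⟨Z, ?_⟩
  have hL0 : (Nat.card L : ℂ) ≠ 0 := by exact_mod_cast Nat.card_pos.ne'
  unfold classInner dadeXi
  have h1 : ∑ l : L, α l * conj (∑ B : Finset G, if dadeP A (l : G) B then dadeT H χ l B else 0)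
      = ∑ B : FS G, dadeW A H χ α (fsVal B) := by
    simp_rw [map_sum, Finset.mul_sum]
    rw [Finset.sum_comm]
    rfl
  rw [h1, hZ, ← mul_assoc, inv_mul_cancel₀ hL0, one_mul]

theorem genChar_of_classInner_int' [Fintype G] {θ : G → ℂ}
    (hθ : IsClassFunction G θ)
    (h : ∀ χ : G → ℂ, IsIrrCharacter G χ → ∃ z : ℤ, classInner θ χ = z) :
    IsGeneralizedCharacter G θ := by
  have := Cfsg.Agent.Lib.Helper20.finite_irrCharacter (G := G)
  have := Fintype.ofFinite (IrrCharacter G)
  rw [Cfsg.Agent.Lib.Helper20.eq_sum_classInner_smul hθ]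
  apply genChar_sum
  intro χ _
  obtain ⟨z, hz⟩ := h χ χ.2
  rw [hz]
  exact genChar_intCast_smul (genChar_of_irr χ.2) z

end dade

end Cfsg.Agent.Lib.Helper4
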