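import Cfsg.Agent.Lib.Helper83.AbInertia
import Cfsg.Agent.Lib.Helper79.ExtCyclicChar
import Cfsg.Agent.Lib.Helper79.IrrMul
import Cfsg.Agent.Lib.Helper19.IndFun2

set_option autoImplicit false

namespace Cfsg.Agent.Lib.Helper4

open Cfsg Cfsg.Agent.Lib.Helper19 Cfsg.Agent.Lib.Helper20 Cfsg.Agent.Lib.Helper5
open scoped ComplexConjugate

/-- Numeric core: `m` naturals with sum `e` and sum of squares at most `(e²+m-1)/m`. -/
theorem fram_numeric {ι : Type*} (C : Finset ι) (a : ι → ℕ) (m e s : ℕ) (hm : 2 ≤ m)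
    (hC : C.card = m) (hsum : ∑ i ∈ C, a i = e) (hsq : ∑ i ∈ C, (a i) ^ 2 ≤ s)
    (hs : s * m + 1 = e ^ 2 + m) :
    (m : ℤ) ∣ (e : ℤ) - 1 ∨ (m : ℤ) ∣ (e : ℤ) + 1 := by
  set k : ℤ := ((e / m : ℕ) : ℤ) with hk
  set r : ℤ := ((e % m : ℕ) : ℤ) with hr
  have hdiv : (e : ℤ) = m * k + r := by
    rw [hk, hr]; exact_mod_cast (Nat.div_add_mod e m).symm
  have hr0 : 0 ≤ r := by rw [hr]; positivity
  have hrm : r ≤ m - 1 := by
    have : e % m < m := Nat.mod_lt _ (by omega)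
    rw [hr]; omega
  have h1 : ∀ i ∈ C, ((a i : ℤ) - k) ≤ ((a i : ℤ) - k) ^ 2 := by
    intro i _
    rcases le_or_gt ((a i : ℤ) - k) 0 with h | h
    · nlinarith [sq_nonneg ((a i : ℤ) - k)]
    · nlinarith
  have h2 := Finset.sum_le_sum h1
  have hsumZ : ∑ i ∈ C, (a i : ℤ) = e := by exact_mod_cast hsum
  have hsqZ : ∑ i ∈ C, (a i : ℤ) ^ 2 ≤ s := by exact_mod_cast hsq
  have hsZ : (s : ℤ) * m + 1 = (e : ℤ) ^ 2 + m := by exact_mod_cast hs
  have h3 : ∑ i ∈ C, ((a i : ℤ) - k) = e - m * k := by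
    rw [Finset.sum_sub_distrib, hsumZ, Finset.sum_const, hC]; simp
  have h4 : ∑ i ∈ C, ((a i : ℤ) - k) ^ 2 = ∑ i ∈ C, (a i : ℤ) ^ 2 - 2 * k * e + m * k ^ 2 := by
    have : ∀ i ∈ C, ((a i : ℤ) - k) ^ 2 = (a i : ℤ) ^ 2 - 2 * k * (a i : ℤ) + k ^ 2 := by
      intro i _; ring
    rw [Finset.sum_congr rfl this, Finset.sum_add_distrib, Finset.sum_sub_distrib,
      ← Finset.mul_sum, hsumZ, Finset.sum_const, hC]
    simp
  rw [h3, h4] at h2
  have hmZ : (2 : ℤ) ≤ m := by exact_mod_cast hm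
  -- m r ≤ r² + m - 1
  have h5 : (m : ℤ) * r ≤ r ^ 2 + m - 1 := by
    have h6 : r ≤ (s : ℤ) - 2 * k * e + m * k ^ 2 := by
      have : (e : ℤ) - m * k = r := by rw [hdiv]; ring
      linarith
    have h7 : (m : ℤ) * r ≤ m * ((s : ℤ) - 2 * k * e + m * k ^ 2) :=
      mul_le_mul_of_nonneg_left h6 (by linarith)
    have h8 : (m : ℤ) * ((s : ℤ) - 2 * k * e + m * k ^ 2) = r ^ 2 + m - 1 := by
      have : (m : ℤ) * s = (e : ℤ) ^ 2 + m - 1 := by linarith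
      calc (m : ℤ) * ((s : ℤ) - 2 * k * e + m * k ^ 2)
          = (m : ℤ) * s - 2 * m * k * e + (m * k) ^ 2 := by ring
        _ = (e : ℤ) ^ 2 + m - 1 - 2 * m * k * e + (m * k) ^ 2 := by rw [this]
        _ = ((e : ℤ) - m * k) ^ 2 + m - 1 := by ring
        _ = r ^ 2 + m - 1 := by rw [hdiv]; ring
    linarith
  have h9 : (r - 1) * ((m : ℤ) - 1 - r) ≤ 0 := by nlinarith
  rcases eq_or_lt_of_le hr0 with h0 | hpos
  · -- r = 0 impossible
    exfalso
    have he : (e : ℤ) = m * k := by rw [hdiv, ← h0]; ring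
    have : (m : ℤ) ∣ 1 := by
      have h10 : (1 : ℤ) = m * (m * k ^ 2 + 1 - s) := by
        have : (s : ℤ) * m + 1 = (m * k) ^ 2 + m := by rw [← he]; exact hsZ
        linarith [this]
      exact Dvd.intro _ h10.symm
    have := Int.le_of_dvd one_pos this
    linarith
  · have hr1 : 1 ≤ r := hpos
    rcases eq_or_lt_of_le hr1 with h1' | h1'
    · left
      refine ⟨k, ?_⟩
      rw [hdiv, ← h1']; ring
    · right
      have : (m : ℤ) - 1 - r ≤ 0 := by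
        by_contra hcon
        push Not at hcon
        nlinarith
      have hrr : r = m - 1 := le_antisymm hrm (by linarith)
      refine ⟨k + 1, ?_⟩
      rw [hdiv, hrr]; ring

/-- Bessel's inequality for natural multiplicities. -/
theorem fram_bessel {X : Type*} [Group X] [Fintype X] (ψ : X → ℂ) (C : Finset (X → ℂ))
    (hC : ∀ ξ ∈ C, IsIrrCharacter X ξ) (a : (X → ℂ) → ℕ)
    (ha : ∀ ξ ∈ C, classInner ψ ξ = a ξ) (s : ℕ) (hs : classInner ψ ψ = s) :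
    ∑ ξ ∈ C, (a ξ) ^ 2 ≤ s := by
  classical
  set δ : X → ℂ := ψ - ∑ ξ ∈ C, (a ξ : ℂ) • ξ with hδ
  have e1 : classInner ψ (∑ ξ ∈ C, (a ξ : ℂ) • ξ) = ∑ ξ ∈ C, ((a ξ : ℂ)) ^ 2 := by
    rw [classInner_sum_right]
    apply Finset.sum_congr rfl
    intro ξ hξ
    rw [classInner_smul_right, ha ξ hξ]
    simp [sq]
  have e2 : classInner (∑ ξ ∈ C, (a ξ : ℂ) • ξ) ψ = ∑ ξ ∈ C, ((a ξ : ℂ)) ^ 2 := by
    rw [← classInner_conj_symm, e1]
    simp
  have e3 : classInner (∑ ξ ∈ C, (a ξ : ℂ) • ξ) (∑ ξ ∈ C, (a ξ : ℂ) • ξ)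
      = ∑ ξ ∈ C, ((a ξ : ℂ)) ^ 2 := by
    rw [classInner_sum_left]
    apply Finset.sum_congr rfl
    intro ξ hξ
    rw [classInner_smul_left, classInner_sum_right, Finset.sum_eq_single ξ]
    · rw [classInner_smul_right, classInner_irr_self (hC ξ hξ)]
      simp [sq]
    · intro η hη hne
      rw [classInner_smul_right, classInner_irr_ne (hC ξ hξ) (hC η hη) hne.symm]
      simp
    · intro h; exact absurd hξ h
  have e4 : classInner δ δ = (s : ℂ) - ∑ ξ ∈ C, ((a ξ : ℂ)) ^ 2 := by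
    rw [hδ, classInner_sub_left, classInner_sub_right, classInner_sub_right, hs, e1, e2, e3]
    ring
  have e5 : classInner δ δ = ((Nat.card X : ℝ)⁻¹ * ∑ x : X, ‖δ x‖ ^ 2 : ℝ) := by
    unfold classInner
    push_cast
    congr 1
    apply Finset.sum_congr rfl
    intro x _
    rw [Complex.mul_conj, Complex.normSq_eq_norm_sq]
    push_cast; ring
  have e6 : (0 : ℝ) ≤ (Nat.card X : ℝ)⁻¹ * ∑ x : X, ‖δ x‖ ^ 2 := by positivity
  have e7 : ((s : ℝ) - ∑ ξ ∈ C, ((a ξ : ℝ)) ^ 2 : ℝ) = (Nat.card X : ℝ)⁻¹ * ∑ x : X, ‖δ x‖ ^ 2 := by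
    have := e4.symm.trans e5
    exact_mod_cast this
  have e8 : (∑ ξ ∈ C, ((a ξ : ℝ)) ^ 2 : ℝ) ≤ s := by linarith
  exact_mod_cast e8

/-- Induction of an invariant irreducible character over a cyclic quotient: a sum of `|X : K|`
distinct irreducible characters. -/
theorem fram_ind_cyclic {X : Type*} [Group X] [Fintype X] (K : Subgroup X) [hK : K.Normal]
    {A : Type*} [Group A] [IsCyclic A] (φ : X →* A) (hφ : φ.ker = K) (θ : K → ℂ)
    (hθ : IsIrrCharacter K θ)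
    (hinv : ∀ (g : X) (h : K), θ ⟨g * h * g⁻¹, hK.conj_mem h h.2 g⟩ = θ h) :
    ∃ C : Finset (X → ℂ), (∀ χ ∈ C, IsIrrCharacter X χ) ∧ C.card * Nat.card K = Nat.card X ∧
      indFun K θ = ∑ χ ∈ C, χ := by
  classical
  have hT : ∀ g : X, g ∈ (⊤ : Subgroup X) ↔
      ∀ h : K, θ ⟨g * h * g⁻¹, hK.conj_mem h h.2 g⟩ = θ h := by
    intro g
    exact ⟨fun _ => hinv g, fun _ => Subgroup.mem_top g⟩
  have hab : ∀ x ∈ (⊤ : Subgroup X), ∀ y ∈ (⊤ : Subgroup X), x * y * x⁻¹ * y⁻¹ ∈ K := by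
    intro x _ y _
    rw [← hφ, MonoidHom.mem_ker]
    obtain ⟨g, hg⟩ := IsCyclic.exists_generator (α := A)
    obtain ⟨i, hi⟩ := Subgroup.mem_zpowers_iff.mp (hg (φ x))
    obtain ⟨j, hj⟩ := Subgroup.mem_zpowers_iff.mp (hg (φ y))
    simp only [map_mul, map_inv, ← hi, ← hj]
    rw [← zpow_add, ← zpow_neg, ← zpow_neg, ← zpow_add, ← zpow_add]
    have : i + j + -i + -j = 0 := by ring
    rw [this, zpow_zero]
  obtain ⟨e, C, he, hC, hcard, hind, -, hext, -⟩ :=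
    Helper83.ind_abelian_inertia K ⊤ θ hθ hT hab
  have he1 : e = 1 := by
    apply hext
    have hcyc : IsCyclic (X ⧸ K) :=
      isCyclic_of_injective
        ((QuotientGroup.kerLift φ).comp (QuotientGroup.quotientMulEquivOfEq hφ.symm).toMonoidHom)
        ((QuotientGroup.kerLift_injective φ).comp
          (QuotientGroup.quotientMulEquivOfEq hφ.symm).injective)
    obtain ⟨χ, hχ, hχv⟩ := Helper79.exists_irr_ext_of_cyclic K hcyc θ hθ hinv
    refine ⟨χ ∘ (Subgroup.topEquiv : (⊤ : Subgroup X) ≃* X), isIrrCharacter_comp_equiv _ hχ, ?_⟩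
    intro x
    exact hχv ⟨((x : (⊤ : Subgroup X)) : X), Subgroup.mem_subgroupOf.mp x.2⟩
  subst he1
  refine ⟨C, hC, ?_, ?_⟩
  · rw [← Subgroup.card_top (G := X), ← hcard]; ring
  · rw [hind]; simp

end Cfsg.Agent.Lib.Helper4
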