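import Cfsg.Agent.Lib.Helper4.FRamA

set_option autoImplicit false

namespace Cfsg.Agent.Lib.Helper4

open Cfsg Cfsg.Agent.Lib.Helper19 Cfsg.Agent.Lib.Helper20 Cfsg.Agent.Lib.Helper5
open Cfsg.Agent.Lib.Helper79 (navg)
open scoped ComplexConjugate

/-- In a "Frobenius modulo `N`" situation every coset of `N` in `G z` contains a `G`-conjugate
of `z`. -/
theorem fram_exists_conj {Γ : Type*} [Group Γ] [Finite Γ] (G N : Subgroup Γ) [hG : G.Normal]
    [hN : N.Normal]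
    (hfrob : ∀ x : Γ, x ∉ G → ∀ g : Γ, g ∈ G → x * g * x⁻¹ * g⁻¹ ∈ N → g ∈ N)
    (z : Γ) (hz : z ∉ G) (g : Γ) (hg : g ∈ G) :
    ∃ u ∈ G, ∃ n ∈ N, u * z * u⁻¹ = n * (g * z) := by
  classical
  let π := QuotientGroup.mk' N
  have hπs : Function.Surjective π := QuotientGroup.mk'_surjective N
  let Gb : Subgroup (Γ ⧸ N) := G.map π
  have hGb : Gb.Normal := hG.map π hπs
  let f : Gb → Gb := fun a => ⟨(a : Γ ⧸ N) * π z * (a : Γ ⧸ N)⁻¹ * (π z)⁻¹, by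
    have h1 : π z * (a : Γ ⧸ N)⁻¹ * (π z)⁻¹ ∈ Gb := hGb.conj_mem _ (Gb.inv_mem a.2) _
    have := Gb.mul_mem a.2 h1
    simpa [mul_assoc] using this⟩
  have hinj : Function.Injective f := by
    intro a b hab
    have h1 : (a : Γ ⧸ N) * π z * (a : Γ ⧸ N)⁻¹ * (π z)⁻¹
        = (b : Γ ⧸ N) * π z * (b : Γ ⧸ N)⁻¹ * (π z)⁻¹ := congrArg Subtype.val hab
    have h2 : (a : Γ ⧸ N) * π z * (a : Γ ⧸ N)⁻¹ = (b : Γ ⧸ N) * π z * (b : Γ ⧸ N)⁻¹ :=
      mul_right_cancel h1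
    obtain ⟨u, hu, hua⟩ := Subgroup.mem_map.mp a.2
    obtain ⟨v, hv, hvb⟩ := Subgroup.mem_map.mp b.2
    have h3 : ((b : Γ ⧸ N)⁻¹ * a) * π z = π z * ((b : Γ ⧸ N)⁻¹ * a) := by
      calc ((b : Γ ⧸ N)⁻¹ * a) * π z
          = (b : Γ ⧸ N)⁻¹ * ((a : Γ ⧸ N) * π z * (a : Γ ⧸ N)⁻¹) * a := by group
        _ = (b : Γ ⧸ N)⁻¹ * ((b : Γ ⧸ N) * π z * (b : Γ ⧸ N)⁻¹) * a := by rw [h2]
        _ = π z * ((b : Γ ⧸ N)⁻¹ * a) := by group
    have hw : z * (v⁻¹ * u) * z⁻¹ * (v⁻¹ * u)⁻¹ ∈ N := by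
      rw [← QuotientGroup.eq_one_iff]
      show π (z * (v⁻¹ * u) * z⁻¹ * (v⁻¹ * u)⁻¹) = 1
      rw [map_mul, map_mul, map_mul, map_inv, map_inv, map_mul, map_inv, hua, hvb, ← h3]
      group
    have hwN := hfrob z hz _ (G.mul_mem (G.inv_mem hv) hu) hw
    have h4 : π (v⁻¹ * u) = 1 := (QuotientGroup.eq_one_iff _).mpr hwN
    rw [map_mul, map_inv, hua, hvb] at h4
    apply Subtype.ext
    exact (inv_mul_eq_one.mp h4).symm
  obtain ⟨a, ha⟩ := (Finite.injective_iff_surjective.mp hinj) ⟨π g, Subgroup.mem_map_of_mem π hg⟩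
  obtain ⟨u, hu, hua⟩ := Subgroup.mem_map.mp a.2
  have h1 : (a : Γ ⧸ N) * π z * (a : Γ ⧸ N)⁻¹ * (π z)⁻¹ = π g := congrArg Subtype.val ha
  refine ⟨u, hu, u * z * u⁻¹ * z⁻¹ * g⁻¹, ?_, by group⟩
  rw [← QuotientGroup.eq_one_iff]
  show π (u * z * u⁻¹ * z⁻¹ * g⁻¹) = 1
  rw [map_mul, map_mul, map_mul, map_mul, map_inv, map_inv, map_inv, hua, h1]
  group

/-- conjugation invariance of coset averages of class functions -/
theorem fram_navg_conj {Γ : Type*} [Group Γ] (N : Subgroup Γ) [hN : N.Normal] [Fintype N]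
    (F : Γ → ℂ) (hF : IsClassFunction Γ F) (u z : Γ) :
    navg N F (u * z * u⁻¹) = navg N F z := by
  unfold navg
  congr 1
  refine Fintype.sum_equiv (MulAut.conjNormal u⁻¹ : MulAut N).toEquiv _ _ ?_
  intro n
  have h := hF ((n : Γ) * (u * z * u⁻¹)) u⁻¹
  rw [← h]
  congr 1
  simp only [MulEquiv.toEquiv_eq_coe, MulEquiv.coe_toEquiv, MulAut.conjNormal_apply, inv_inv]
  group

/-- summing coset averages over a larger subgroup -/
theorem fram_sum_navg {Γ : Type*} [Group Γ] (N H : Subgroup Γ) [Fintype N] [Fintype H]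
    (hNH : N ≤ H) (F : Γ → ℂ) (z : Γ) :
    ∑ h : H, navg N F ((h : Γ) * z) = ∑ h : H, F ((h : Γ) * z) := by
  have hcard : (Nat.card N : ℂ) ≠ 0 := Helper79.card_ne_zero_complex'
  unfold navg
  rw [← Finset.mul_sum, Finset.sum_comm]
  have h1 : ∀ n : N, ∑ h : H, F ((n : Γ) * ((h : Γ) * z)) = ∑ h : H, F ((h : Γ) * z) := by
    intro n
    rw [← Equiv.sum_comp (Equiv.mulLeft (⟨n, hNH n.2⟩ : H)) (fun h : H => F ((h : Γ) * z))]
    apply Finset.sum_congr rfl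
    intro h _
    simp [mul_assoc]
  simp_rw [h1]
  rw [Finset.sum_const, Finset.card_univ, ← Nat.card_eq_fintype_card, nsmul_eq_mul,
    ← mul_assoc, inv_mul_cancel₀ hcard, one_mul]

/-- Off `G`, the `N`-coset averages of `|τ|²` are `1`. -/
theorem fram_navg_off {Γ : Type*} [Group Γ] [Fintype Γ] (G N : Subgroup Γ) [hG : G.Normal]
    [hN : N.Normal] [Fintype G] [Fintype N] (hNG : N ≤ G)
    (hfrob : ∀ x : Γ, x ∉ G → ∀ g : Γ, g ∈ G → x * g * x⁻¹ * g⁻¹ ∈ N → g ∈ N)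
    {τ : Γ → ℂ} (hτ : IsIrrCharacter Γ τ) (hτG : IsIrrCharacter G (fun g : G => τ g))
    (z : Γ) (hz : z ∉ G) :
    navg N (fun g => τ g * conj (τ g)) z = 1 := by
  set F : Γ → ℂ := fun g => τ g * conj (τ g) with hF
  have hτcl := isClassFunction_of_isCharacter (isCharacter_of_isIrrCharacter hτ)
  have hFcl : IsClassFunction Γ F := by
    intro g h
    simp only [hF, hτcl g h]
  have h1 : navg G F z = 1 := congrFun (Helper79.navg_mul_conj_eq_one G hτ hτG) z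
  have h2 : ∀ g : G, navg N F ((g : Γ) * z) = navg N F z := by
    intro g
    obtain ⟨u, -, n, hn, hun⟩ := fram_exists_conj G N hfrob z hz g g.2
    rw [← Helper79.navg_mul_left N F ⟨n, hn⟩ ((g : Γ) * z)]
    show navg N F (n * ((g : Γ) * z)) = _
    rw [← hun, fram_navg_conj N F hFcl]
  have h3 := fram_sum_navg N G hNG F z
  simp_rw [h2] at h3
  rw [Finset.sum_const, Finset.card_univ, ← Nat.card_eq_fintype_card, nsmul_eq_mul] at h3
  have hcard : (Nat.card G : ℂ) ≠ 0 := Helper79.card_ne_zero_complex'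
  have h4 : navg G F z = (Nat.card G : ℂ)⁻¹ * ∑ g : G, F ((g : Γ) * z) := rfl
  rw [h4, ← h3, ← mul_assoc, inv_mul_cancel₀ hcard, one_mul] at h1
  exact h1

/-- On `N`, the `N`-coset average of `|τ|²` is `e²`. -/
theorem fram_navg_on {Γ : Type*} [Group Γ] (N : Subgroup Γ) [Fintype N]
    {τ : Γ → ℂ} {θ : N → ℂ} (hθ : IsIrrCharacter N θ) (e : ℕ) (hτN : ∀ n : N, τ n = (e : ℂ) * θ n)
    (z : Γ) (hz : z ∈ N) :
    navg N (fun g => τ g * conj (τ g)) z = (e : ℂ) ^ 2 := by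
  have h1 := Helper79.navg_mul_left N (fun g => τ g * conj (τ g)) ⟨z, hz⟩ 1
  simp only [mul_one] at h1
  rw [h1, Helper79.navg_mul_conj_one]
  have h2 : (fun n : N => τ n) = (e : ℂ) • θ := by
    funext n; simp [hτN]
  rw [h2, classInner_smul_left, classInner_smul_right, classInner_irr_self hθ]
  simp [sq]

end Cfsg.Agent.Lib.Helper4
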