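import Cfsg.Agent.Lib.Helper4.FRamB

set_option autoImplicit false

namespace Cfsg.Agent.Lib.Helper4

open Cfsg Cfsg.Agent.Lib.Helper19 Cfsg.Agent.Lib.Helper20 Cfsg.Agent.Lib.Helper5
open Cfsg.Agent.Lib.Helper79 (navg)
open scoped ComplexConjugate Pointwise

/-- Core: `Γ/N` Frobenius with kernel `G/N`, `Γ/G` cyclic, `τ ∈ Irr(Γ)` with `τ_G` irreducible and
`τ_N = e θ`: then `|Γ : G|` divides `e - 1` or `e + 1`. -/
theorem fram_core {Γ : Type*} [Group Γ] [Fintype Γ] (G N : Subgroup Γ) [hG : G.Normal]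
    [hN : N.Normal] [Fintype G] [Fintype N] (hNG : N ≤ G) (hGlt : G ≠ ⊤)
    (hcyc : IsCyclic (Γ ⧸ G))
    (hfrob : ∀ x : Γ, x ∉ G → ∀ g : Γ, g ∈ G → x * g * x⁻¹ * g⁻¹ ∈ N → g ∈ N)
    {θ : N → ℂ} (hθ : IsIrrCharacter N θ)
    (hinv : ∀ (x : Γ) (n : N), θ ⟨x * n * x⁻¹, hN.conj_mem n n.2 x⟩ = θ n)
    {τ : Γ → ℂ} (hτ : IsIrrCharacter Γ τ) (hτG : IsIrrCharacter G (fun g : G => τ g))
    (e : ℕ) (hτN : ∀ n : N, τ n = (e : ℂ) * θ n) :
    (G.index : ℤ) ∣ (e : ℤ) - 1 ∨ (G.index : ℤ) ∣ (e : ℤ) + 1 := by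
  classical
  obtain ⟨q0, hq0⟩ := hcyc.exists_generator
  obtain ⟨y, rfl⟩ := QuotientGroup.mk_surjective q0
  have hy : y ∉ G := by
    intro hyG
    apply hGlt
    rw [eq_top_iff]; intro x _
    obtain ⟨i, hi⟩ := Subgroup.mem_zpowers_iff.mp (hq0 (x : Γ ⧸ G))
    have h1 : ((y : Γ ⧸ G)) = 1 := (QuotientGroup.eq_one_iff y).mpr hyG
    rw [h1, one_zpow] at hi
    exact (QuotientGroup.eq_one_iff x).mp hi.symm
  set H : Subgroup Γ := N ⊔ Subgroup.zpowers y with hH
  have hNH : N ≤ H := le_sup_left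
  have hyH : y ∈ H := (le_sup_right : Subgroup.zpowers y ≤ H) (Subgroup.mem_zpowers y)
  have hHG : ∀ h ∈ H, h ∈ G → h ∈ N := by
    intro h hh hhG
    have h0 : h ∈ ((N : Set Γ) * (Subgroup.zpowers y : Set Γ)) := by
      rw [← Subgroup.normal_mul]; exact hh
    obtain ⟨n, hn, w, hw, rfl⟩ := Set.mem_mul.mp h0
    obtain ⟨k, rfl⟩ := Subgroup.mem_zpowers_iff.mp hw
    have hykG : y ^ k ∈ G := by
      have := G.mul_mem (G.inv_mem (hNG hn)) hhG
      simpa using this
    have hykN : y ^ k ∈ N := by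
      apply hfrob y hy _ hykG
      have h1 : y * y ^ k * y⁻¹ * (y ^ k)⁻¹ = 1 := by group
      rw [h1]; exact N.one_mem
    exact N.mul_mem hn hykN
  haveI : Fintype H := Fintype.ofFinite H
  let φ : H →* Γ ⧸ G := (QuotientGroup.mk' G).comp H.subtype
  set K : Subgroup H := N.subgroupOf H with hK
  have hKn : K.Normal := hN.subgroupOf H
  haveI : Fintype K := Fintype.ofFinite K
  have hφker : φ.ker = K := by
    ext h
    rw [MonoidHom.mem_ker, hK, Subgroup.mem_subgroupOf]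
    show ((h : Γ) : Γ ⧸ G) = 1 ↔ _
    rw [QuotientGroup.eq_one_iff]
    exact ⟨hHG h h.2, fun hh => hNG hh⟩
  have hφs : Function.Surjective φ := by
    intro q
    obtain ⟨i, hi⟩ := Subgroup.mem_zpowers_iff.mp (hq0 q)
    exact ⟨⟨y ^ i, H.zpow_mem hyH i⟩, by rw [← hi]; rfl⟩
  have hcardH : Nat.card H = G.index * Nat.card K := by
    have h1 := Subgroup.card_eq_card_quotient_mul_card_subgroup φ.ker
    have h2 : Nat.card (H ⧸ φ.ker) = Nat.card (Γ ⧸ G) :=
      Nat.card_congr (QuotientGroup.quotientKerEquivOfSurjective φ hφs).toEquiv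
    rw [h2, hφker] at h1
    exact h1
  set θ' : K → ℂ := fun x => θ ⟨((x : H) : Γ), Subgroup.mem_subgroupOf.mp x.2⟩ with hθ'def
  have hθ' : IsIrrCharacter K θ' := by
    have : θ' = θ ∘ (Subgroup.subgroupOfEquivOfLe hNH) := by
      funext x; rfl
    rw [this]; exact isIrrCharacter_comp_equiv _ hθ
  have hinv' : ∀ (g : H) (h : K), θ' ⟨g * h * g⁻¹, hKn.conj_mem h h.2 g⟩ = θ' h := by
    intro g h
    exact hinv g ⟨((h : H) : Γ), Subgroup.mem_subgroupOf.mp h.2⟩
  have := hcyc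
  obtain ⟨C, hC, hCcard, hind⟩ := fram_ind_cyclic K φ hφker θ' hθ' hinv'
  set ψ : H → ℂ := fun h => τ h with hψdef
  have hψ : IsCharacter H ψ := isCharacter_restrict (isCharacter_of_isIrrCharacter hτ) H
  have hψcl := isClassFunction_of_isCharacter hψ
  let a : (H → ℂ) → ℕ := fun ξ =>
    if h : IsIrrCharacter H ξ then Classical.choose (isCharacter_classInner_nat hψ h) else 0
  have ha : ∀ ξ ∈ C, classInner ψ ξ = a ξ := by
    intro ξ hξ
    simp only [a, dif_pos (hC ξ hξ)]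
    exact Classical.choose_spec (isCharacter_classInner_nat hψ (hC ξ hξ))
  obtain ⟨s, hs⟩ := isCharacter_classInner_nat' hψ hψ
  have hbes := fram_bessel ψ C hC a ha s hs
  have hKpos : 0 < Nat.card K := Nat.card_pos
  have hCm : C.card = G.index := by
    rw [hcardH] at hCcard
    exact Nat.eq_of_mul_eq_mul_right hKpos hCcard
  have hm : 2 ≤ G.index := by
    have h0 : G.index ≠ 0 := Subgroup.index_ne_zero_of_finite
    have h1 : G.index ≠ 1 := fun h => hGlt (Subgroup.index_eq_one.mp h)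
    omega
  have hsum : ∑ ξ ∈ C, a ξ = e := by
    have h1 := frobenius_reciprocity K θ' ψ hψcl
    have h2 : (fun k : K => ψ k) = (e : ℂ) • θ' := by
      funext k
      exact hτN ⟨((k : H) : Γ), Subgroup.mem_subgroupOf.mp k.2⟩
    rw [h2, classInner_smul_right, classInner_irr_self hθ'] at h1
    have h3 : classInner ψ (indFun K θ') = e := by
      rw [← classInner_conj_symm, h1]; simp
    rw [hind, classInner_sum_right, Finset.sum_congr rfl ha] at h3
    exact_mod_cast h3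
  have hnorm : s * G.index + 1 = e ^ 2 + G.index := by
    set F : Γ → ℂ := fun g => τ g * conj (τ g) with hF
    have h1 : classInner ψ ψ = (Nat.card H : ℂ)⁻¹ * ∑ h : H, F ((h : Γ) * 1) := by
      unfold classInner
      simp [hF, hψdef]
    rw [← fram_sum_navg N H hNH F 1] at h1
    have h2 : ∀ h : H, navg N F ((h : Γ) * 1) = 1 + (if h ∈ K then ((e : ℂ) ^ 2 - 1) else 0) := by
      intro h
      rw [mul_one]
      by_cases hh : h ∈ K
      · rw [if_pos hh, fram_navg_on N hθ e hτN _ (Subgroup.mem_subgroupOf.mp hh)]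
        ring
      · rw [if_neg hh, add_zero]
        apply fram_navg_off G N hNG hfrob hτ hτG
        intro hhG
        exact hh (Subgroup.mem_subgroupOf.mpr (hHG h h.2 hhG))
    simp_rw [h2] at h1
    rw [Finset.sum_add_distrib, ← Finset.sum_filter,
      ← Helper79.sum_subgroup_eq_filter K (fun _ => ((e : ℂ) ^ 2 - 1))] at h1
    simp only [Finset.sum_const, Finset.card_univ, ← Nat.card_eq_fintype_card, nsmul_eq_mul,
      mul_one] at h1
    rw [hs, hcardH] at h1
    have hKne : (Nat.card K : ℂ) ≠ 0 := by exact_mod_cast hKpos.ne'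
    have hmne : (G.index : ℂ) ≠ 0 := by
      have : G.index ≠ 0 := Subgroup.index_ne_zero_of_finite
      exact_mod_cast this
    push_cast at h1
    have h3 : (s : ℂ) * G.index + 1 = (e : ℂ) ^ 2 + G.index := by
      field_simp at h1
      linear_combination h1
    exact_mod_cast h3
  exact fram_numeric C a G.index e s hm hCm hsum hbes hnorm

end Cfsg.Agent.Lib.Helper4
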