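import Cfsg.Agent.Lib.Helper4.FRamC
import Cfsg.Agent.Lib.Helper5.ExtraChar
import Cfsg.Agent.S0187

set_option autoImplicit false

namespace Cfsg.Agent.Lib.Helper4

open Cfsg Cfsg.Agent.Lib.Helper19 Cfsg.Agent.Lib.Helper20 Cfsg.Agent.Lib.Helper5
open scoped ComplexConjugate

/-- A cyclic group acting on an extraspecial-like group `G` of order `p^(2n+1)`, trivially on the
centre and fixed point freely on `G/Z(G)`, has order dividing `p^n - 1` or `p^n + 1`. -/
theorem fram_es {Γ : Type*} [Group Γ] [Finite Γ] {p : ℕ} (hp : p.Prime) (G : Subgroup Γ)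
    [hG : G.Normal] (hc : commutator G = Subgroup.center G)
    (hZ : Nat.card (Subgroup.center G) = p) (n : ℕ) (hn : Nat.card G = p ^ (2 * n + 1))
    (hGlt : G ≠ ⊤) (hcyc : IsCyclic (Γ ⧸ G))
    (hcent : ∀ (x : Γ) (z : G), z ∈ Subgroup.center G → x * z = z * x)
    (hfrob : ∀ x : Γ, x ∉ G → ∀ g : G,
      (∃ z ∈ Subgroup.center G, x * g * x⁻¹ * (g : Γ)⁻¹ = ((z : G) : Γ)) → g ∈ Subgroup.center G) :
    (G.index : ℤ) ∣ (p : ℤ) ^ n - 1 ∨ (G.index : ℤ) ∣ (p : ℤ) ^ n + 1 := by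
  classical
  have : Fintype Γ := Fintype.ofFinite Γ
  have : Fintype G := Fintype.ofFinite G
  set Zc : Subgroup G := Subgroup.center G with hZc
  have : Fintype Zc := Fintype.ofFinite Zc
  set N : Subgroup Γ := Zc.map G.subtype with hNdef
  have : Fintype N := Fintype.ofFinite N
  have hNG : N ≤ G := Subgroup.map_subtype_le _
  have hconj : ∀ (x : Γ) (z : G), z ∈ Zc → x * z * x⁻¹ = z := by
    intro x z hz
    rw [hcent x z hz]; group
  have hNn : N.Normal := by
    refine ⟨fun x hx y => ?_⟩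
    obtain ⟨z, hz, rfl⟩ := Subgroup.mem_map.mp hx
    have h1 : y * (G.subtype z) * y⁻¹ = G.subtype z := hconj y z hz
    rw [h1]; exact hx
  have hnpos := es_n_pos hp hc hZ hn
  have hnab : ¬ ∀ a b : G, a * b = b * a := by
    intro h
    have h1 : Zc = ⊤ := by
      rw [eq_top_iff]; intro z _
      rw [hZc, Subgroup.mem_center_iff]
      intro g; exact h g z
    have h2 : Nat.card Zc = Nat.card G := by rw [h1]; exact Subgroup.card_top
    rw [hZ, hn] at h2
    have h3 : p ^ 1 = p ^ (2 * n + 1) := by rw [pow_one]; exact h2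
    have := Nat.pow_right_injective hp.two_le h3
    omega
  obtain ⟨χ, hχ1⟩ : ∃ χ : IrrCharacter G, (χ : G → ℂ) 1 ≠ 1 := by
    by_contra hcon
    push Not at hcon
    exact hnab (Cfsg.Agent.S0187.result.2 hcon)
  have hχirr : IsIrrCharacter G (χ : G → ℂ) := χ.2
  have hχc := isCharacter_of_isIrrCharacter hχirr
  have hvan : ∀ g : G, g ∉ Zc → (χ : G → ℂ) g = 0 := fun g hg => es_vanish hp hc hZ hχirr hχ1 hg
  obtain ⟨θ₁, hθ₁, hcon⟩ := exists_constituent (isCharacter_restrict hχc Zc)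
    (irr_one_ne_zero hχirr)
  have hinv₁ : ∀ (g : G) (z : Zc), θ₁ ⟨g * z * g⁻¹,
      (inferInstance : Zc.Normal).conj_mem (z : G) z.2 g⟩ = θ₁ z := by
    intro g z
    congr 1
    apply Subtype.ext
    show g * (z : G) * g⁻¹ = z
    have := (Subgroup.mem_center_iff.mp z.2) g
    rw [this]; group
  obtain ⟨e, -, hres, -⟩ := Helper79.restrict_eq_smul_of_invariant Zc hχirr hθ₁ hcon hinv₁
  have hres' : ∀ z : Zc, (χ : G → ℂ) z = (e : ℂ) * θ₁ z := fun z => congrFun hres z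
  have he2 : e ^ 2 = Zc.index := Helper79.sq_eq_index_of_vanish_off Zc hχirr hθ₁ e hres' hvan
  have he : e = p ^ n := by
    have h1 := Zc.index_mul_card
    rw [hZ, hn, ← he2] at h1
    have h2 : e ^ 2 * p = (p ^ n) ^ 2 * p := by rw [h1]; ring
    have h3 := Nat.eq_of_mul_eq_mul_right hp.pos h2
    exact Nat.pow_left_injective (n := 2) (by norm_num) h3
  let eqv : Zc ≃* N := Subgroup.equivMapOfInjective Zc G.subtype Subtype.coe_injective
  set θ : N → ℂ := θ₁ ∘ eqv.symm with hθdef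
  have hθ : IsIrrCharacter N θ := isIrrCharacter_comp_equiv _ hθ₁
  have hcoe : ∀ m : N, (((eqv.symm m : Zc) : G) : Γ) = m := by
    intro m
    have h1 := Subgroup.coe_equivMapOfInjective_apply Zc G.subtype Subtype.coe_injective
      (eqv.symm m)
    have h2 : eqv (eqv.symm m) = m := eqv.apply_symm_apply m
    have h3 : ((eqv (eqv.symm m) : N) : Γ) = G.subtype (eqv.symm m : Zc) := h1
    rw [h2] at h3
    exact h3.symm
  have hinv : ∀ (x : Γ) (m : N), θ ⟨x * m * x⁻¹, hNn.conj_mem m m.2 x⟩ = θ m := by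
    intro x m
    congr 1
    apply Subtype.ext
    show x * (m : Γ) * x⁻¹ = m
    rw [← hcoe m]
    exact hconj x _ (eqv.symm m).2
  have hinvχ : ∀ (x : Γ) (g : G), (χ : G → ℂ) ⟨x * g * x⁻¹, hG.conj_mem (g : Γ) g.2 x⟩
      = (χ : G → ℂ) g := by
    intro x g
    by_cases hg : g ∈ Zc
    · have h0 : (⟨x * g * x⁻¹, hG.conj_mem (g : Γ) g.2 x⟩ : G) = g := Subtype.ext (hconj x g hg)
      rw [h0]
    · rw [hvan g hg]
      apply hvan
      intro h
      apply hg
      have h1 := hconj x⁻¹ _ h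
      have h1' : x⁻¹ * (x * (g : Γ) * x⁻¹) * x⁻¹⁻¹ = x * (g : Γ) * x⁻¹ := h1
      have h2 : (g : Γ) = x * g * x⁻¹ := by
        rw [← h1']
        group
      have h3 : g = ⟨x * g * x⁻¹, hG.conj_mem (g : Γ) g.2 x⟩ := Subtype.ext h2
      rw [h3]; exact h
  obtain ⟨τ, hτ, hτv⟩ := Helper79.exists_irr_ext_of_cyclic G hcyc (χ : G → ℂ) hχirr hinvχ
  have hτG : IsIrrCharacter G (fun g : G => τ g) := by
    have : (fun g : G => τ g) = (χ : G → ℂ) := funext hτv
    rw [this]; exact hχirr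
  have hτN : ∀ m : N, τ m = (e : ℂ) * θ m := by
    intro m
    have h1 := hτv ((eqv.symm m : Zc) : G)
    rw [hcoe m] at h1
    rw [h1, hres' (eqv.symm m)]
    rfl
  have hfrob' : ∀ x : Γ, x ∉ G → ∀ g : Γ, g ∈ G → x * g * x⁻¹ * g⁻¹ ∈ N → g ∈ N := by
    intro x hx g hg h
    obtain ⟨z, hz, hzz⟩ := Subgroup.mem_map.mp h
    have := hfrob x hx ⟨g, hg⟩ ⟨z, hz, hzz.symm⟩
    exact Subgroup.mem_map.mpr ⟨⟨g, hg⟩, this, rfl⟩
  have := fram_core G N hNG hGlt hcyc hfrob' hθ hinv hτ hτG e hτN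
  rw [he] at this
  push_cast at this
  exact this

end Cfsg.Agent.Lib.Helper4
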