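import Mathlib
import Cfsg.Prelude.Def_Characters
import Cfsg.Agent.Lib.Helper4.Blich3
import Cfsg.Agent.Lib.Helper4.Brauer1
import Cfsg.Agent.Lib.Helper5.Clifford

set_option autoImplicit false
set_option linter.unusedSectionVars false

namespace Cfsg.Agent.Lib.Helper4

open scoped ComplexConjugate
open Cfsg.Agent.Lib.Helper19 (homFun exists_hom_of_linear homFun_apply)
open Cfsg.Agent.Lib.Helper5 (cjF cjF_apply cjF_one cjF_cjF isIrrCharacter_cjF clifford_inner_conj)

universe u

section weights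

variable {G : Type u} [Group G] [Finite G]

/-- the irreducible constituents of the restriction of `χ` to `B` -/
def Wt (χ : G → ℂ) (B : Subgroup G) [Fintype B] : Type u :=
  {f : IrrCharacter B // classInner (fun b : B => χ b) f.1 ≠ 0}

/-- the conjugation action on the constituents -/
noncomputable def wtAct {χ : G → ℂ} {B : Subgroup G} [Fintype B] (hB : B.Normal)
    (hχ : IsClassFunction G χ) : MulAction G (Wt χ B) where
  smul g f := ⟨⟨cjF hB f.1.1 g⁻¹, isIrrCharacter_cjF hB f.1.2 g⁻¹⟩, by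
    change classInner (fun b : B => χ b) (cjF hB f.1.1 g⁻¹) ≠ 0
    rw [clifford_inner_conj hB hχ]
    exact f.2⟩
  one_smul f := by
    apply Subtype.ext
    apply Subtype.ext
    change cjF hB f.1.1 (1 : G)⁻¹ = f.1.1
    rw [inv_one, cjF_one]
  mul_smul g h f := by
    apply Subtype.ext
    apply Subtype.ext
    change cjF hB f.1.1 (g * h)⁻¹ = cjF hB (cjF hB f.1.1 h⁻¹) g⁻¹
    rw [cjF_cjF, mul_inv_rev]

theorem wt_finite (χ : G → ℂ) (B : Subgroup G) [Fintype B] : Finite (Wt χ B) := by
  have := finite_irrCharacter (G := B)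
  unfold Wt
  infer_instance

theorem card_wt_le {χ : G → ℂ} (hχ : IsCharacter G χ) {n : ℕ} (hn : χ 1 = n) (B : Subgroup G)
    [Fintype B] : Nat.card (Wt χ B) ≤ n := by
  classical
  have := finite_irrCharacter (G := B)
  have := Fintype.ofFinite (IrrCharacter B)
  obtain ⟨m, hm1, hm⟩ := char_eq_sum_nat_irr (isCharacter_restrict hχ B)
  choose d hd0 hd using fun ψ : IrrCharacter B => irr_apply_one ψ.2
  have hsum : n = ∑ ψ : IrrCharacter B, m ψ * d ψ := by
    have h1 := congrFun hm 1
    rw [Finset.sum_apply] at h1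
    simp only [Pi.smul_apply, smul_eq_mul, hd] at h1
    have h2 : χ ((1 : B) : G) = n := hn
    rw [h2] at h1
    exact_mod_cast h1
  have h1 : Nat.card (Wt χ B) = (Finset.univ.filter fun ψ : IrrCharacter B => m ψ ≠ 0).card := by
    unfold Wt
    rw [Nat.card_eq_fintype_card, Fintype.card_subtype]
    congr 1
    ext ψ
    simp only [Finset.mem_filter, Finset.mem_univ, true_and, hm1, ne_eq, Nat.cast_eq_zero]
  rw [h1, hsum, Finset.card_eq_sum_ones, Finset.sum_filter]
  apply Finset.sum_le_sum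
  intro ψ _
  split_ifs with h
  · exact Nat.mul_pos (Nat.pos_of_ne_zero h) (hd0 ψ)
  · exact Nat.zero_le _

/-- an element of `B` which lies in the kernel of all constituents of `χ_B` is trivial -/
theorem eq_one_of_forall_wt {χ : G → ℂ} (hχ : IsCharacter G χ)
    (hfaith : ∀ g : G, χ g = χ 1 → g = 1) (B : Subgroup G) [Fintype B] (c : B)
    (h : ∀ f : Wt χ B, f.1.1 c = f.1.1 1) : c = 1 := by
  classical
  have := finite_irrCharacter (G := B)
  have := Fintype.ofFinite (IrrCharacter B)
  obtain ⟨m, hm1, hm⟩ := char_eq_sum_nat_irr (isCharacter_restrict hχ B)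
  apply Subtype.ext
  apply hfaith
  have h1 := congrFun hm c
  have h2 := congrFun hm 1
  change χ (c : G) = χ ((1 : B) : G)
  rw [h1, h2, Finset.sum_apply, Finset.sum_apply]
  apply Finset.sum_congr rfl
  intro ψ _
  simp only [Pi.smul_apply, smul_eq_mul]
  by_cases h0 : m ψ = 0
  · rw [h0]; simp
  · have h3 : classInner (fun b : B => χ b) ψ.1 ≠ 0 := by
      rw [hm1]
      exact_mod_cast h0
    rw [h ⟨ψ, h3⟩]

/-- If `B` is an abelian normal subgroup of a group with a faithful character of degree `n`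
then the index of the centralizer of `B` divides `n!`. -/
theorem index_centralizer_dvd_factorial {χ : G → ℂ} (hχ : IsCharacter G χ)
    (hfaith : ∀ g : G, χ g = χ 1 → g = 1) {n : ℕ} (hn : χ 1 = n) (B : Subgroup G)
    (hB : B.Normal) (hab : ∀ x ∈ B, ∀ y ∈ B, x * y = y * x) :
    (Subgroup.centralizer (B : Set G)).index ∣ n.factorial := by
  classical
  have := Fintype.ofFinite B
  have hcl : IsClassFunction G χ := isClassFunction_of_char hχ
  letI := wtAct (χ := χ) hB hcl
  have := wt_finite χ B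
  have := Fintype.ofFinite (Wt χ B)
  have hcomm : IsMulCommutative B := ⟨⟨fun x y => Subtype.ext (hab x x.2 y y.2)⟩⟩
  have hker : (MulAction.toPermHom G (Wt χ B)).ker ≤ Subgroup.centralizer (B : Set G) := by
    intro g hg
    rw [MonoidHom.mem_ker] at hg
    rw [Subgroup.mem_centralizer_iff]
    intro b hb
    have hc : g⁻¹ * b * g * b⁻¹ ∈ B := by
      apply B.mul_mem _ (B.inv_mem hb)
      have := hB.conj_mem b hb g⁻¹
      rwa [inv_inv] at this
    have h1 : (⟨g⁻¹ * b * g * b⁻¹, hc⟩ : B) = 1 := by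
      apply eq_one_of_forall_wt hχ hfaith
      intro f
      have h2 : g • f = f := by
        have := congrArg (fun σ : Equiv.Perm (Wt χ B) => σ f) hg
        simpa using this
      have h3 : cjF hB f.1.1 g⁻¹ = f.1.1 := congrArg (fun f : Wt χ B => f.1.1) h2
      obtain ⟨φ, hφ⟩ := exists_hom_of_linear f.1.1
        ⟨isCharacter_of_irr f.1.2, irr_apply_one_of_comm f.1.2⟩
      have h4 := congrFun h3 ⟨b, hb⟩
      rw [cjF_apply, hφ, homFun_apply, homFun_apply] at h4
      have h5 : (⟨g⁻¹ * b * g * b⁻¹, hc⟩ : B) =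
          ⟨g⁻¹ * ((⟨b, hb⟩ : B) : G) * g⁻¹⁻¹, hB.conj_mem _ hb g⁻¹⟩ * (⟨b, hb⟩ : B)⁻¹ := by
        apply Subtype.ext
        simp
      rw [hφ, homFun_apply, homFun_apply, h5, map_mul, map_inv, map_one]
      have h6 : φ ⟨g⁻¹ * ((⟨b, hb⟩ : B) : G) * g⁻¹⁻¹, hB.conj_mem _ hb g⁻¹⟩ = φ ⟨b, hb⟩ :=
        Units.ext h4
      rw [h6, mul_inv_cancel]
    have h2 : g⁻¹ * b * g * b⁻¹ = 1 := congrArg Subtype.val h1
    calc b * g = g * (g⁻¹ * b * g * b⁻¹) * b := by group
      _ = g * b := by rw [h2, mul_one]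
  refine (Subgroup.index_dvd_of_le hker).trans ?_
  rw [Subgroup.index_ker]
  have h1 : Nat.card (MulAction.toPermHom G (Wt χ B)).range ∣ Nat.card (Equiv.Perm (Wt χ B)) :=
    Subgroup.card_subgroup_dvd_card _
  refine h1.trans ?_
  rw [Nat.card_eq_fintype_card, Fintype.card_perm]
  apply Nat.factorial_dvd_factorial
  rw [← Nat.card_eq_fintype_card]
  exact card_wt_le hχ hn B

end weights

end Cfsg.Agent.Lib.Helper4
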