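import Mathlib
import Cfsg.Prelude.Def_Characters
import Cfsg.Agent.Lib.Helper4.JordanW
import Cfsg.Agent.S0015

set_option autoImplicit false
set_option linter.unusedSectionVars false

namespace Cfsg.Agent.Lib.Helper4

universe u

/-- a nilpotent group with a faithful character of degree `n` has an abelian (normal) subgroup
of index dividing `n!` -/
theorem exists_abelian_index_dvd_factorial {P : Type u} [Group P] [Finite P]
    [Group.IsNilpotent P] {χ : P → ℂ} (hχ : IsCharacter P χ)
    (hfaith : ∀ g : P, χ g = χ 1 → g = 1) {n : ℕ} (hn : χ 1 = n) :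
    ∃ B : Subgroup P, (∀ x ∈ B, ∀ y ∈ B, x * y = y * x) ∧ B.index ∣ n.factorial := by
  have hfin : {M : Subgroup P | M.Normal ∧ IsMulCommutative M}.Finite := Set.toFinite _
  have hne : {M : Subgroup P | M.Normal ∧ IsMulCommutative M}.Nonempty := by
    refine ⟨⊥, inferInstance, ⟨⟨fun x y => ?_⟩⟩⟩
    have hx : x = 1 := Subsingleton.elim _ _
    rw [hx, one_mul, mul_one]
  obtain ⟨B, hB⟩ := hfin.exists_maximal hne
  have hBn : B.Normal := hB.prop.1
  have hBc : IsMulCommutative B := hB.prop.2
  have hab : ∀ x ∈ B, ∀ y ∈ B, x * y = y * x := by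
    intro x hx y hy
    exact congrArg Subtype.val (hBc.is_comm.comm (⟨x, hx⟩ : B) ⟨y, hy⟩)
  have hcent : Subgroup.centralizer (B : Set P) = B := by
    apply Cfsg.Agent.S0015.result B
    intro M hM1 hM2 hle
    exact (hB.eq_of_le ⟨hM1, hM2⟩ hle).symm
  refine ⟨B, hab, ?_⟩
  have := index_centralizer_dvd_factorial hχ hfaith hn B hBn hab
  rwa [hcent] at this

/-- the arithmetic of the bound -/
theorem jordan_arith {N n K : ℕ} (hN : N ≠ 0) (hp : ∀ p : ℕ, p.Prime → p ∣ N → p ≤ n + 1)
    (h : ∀ p : ℕ, p.Prime → p ^ N.factorization p ≤ p ^ (n.factorial).factorization p * K) :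
    N ≤ n.factorial * K ^ Nat.primeCounting (n + 1) := by
  have h1 : N = ∏ p ∈ Nat.primesBelow (n + 2), p ^ N.factorization p := by
    conv_lhs => rw [← Nat.prod_factorization_pow_eq_self hN]
    apply Finsupp.prod_of_support_subset
    · intro p hp'
      rw [Nat.support_factorization, Nat.mem_primeFactors] at hp'
      rw [Nat.mem_primesBelow]
      exact ⟨Nat.lt_succ_of_le (hp p hp'.1 hp'.2.1), hp'.1⟩
    · intro i _
      exact pow_zero i
  have h2 : n.factorial = ∏ p ∈ Nat.primesBelow (n + 2), p ^ (n.factorial).factorization p := by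
    conv_lhs => rw [← Nat.prod_factorization_pow_eq_self (Nat.factorial_ne_zero n)]
    apply Finsupp.prod_of_support_subset
    · intro p hp'
      rw [Nat.support_factorization, Nat.mem_primeFactors] at hp'
      rw [Nat.mem_primesBelow]
      have := (Nat.Prime.dvd_factorial hp'.1).1 hp'.2.1
      exact ⟨by omega, hp'.1⟩
    · intro i _
      exact pow_zero i
  have h3 : Nat.primeCounting (n + 1) = (Nat.primesBelow (n + 2)).card := by
    rw [Nat.primesBelow_card_eq_primeCounting']
    rfl
  calc N = ∏ p ∈ Nat.primesBelow (n + 2), p ^ N.factorization p := h1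
    _ ≤ ∏ p ∈ Nat.primesBelow (n + 2), (p ^ (n.factorial).factorization p * K) := by
        apply Finset.prod_le_prod'
        intro p hp'
        exact h p (Nat.mem_primesBelow.1 hp').2
    _ = n.factorial * K ^ Nat.primeCounting (n + 1) := by
        rw [Finset.prod_mul_distrib, ← h2, Finset.prod_const, h3]

section assembly

variable {G : Type u} [Group G] [Finite G]

/-- the `p`-part of the index of `A` -/
theorem pow_factorization_le {χ : G → ℂ} (hχ : IsCharacter G χ)
    (hfaith : ∀ g : G, χ g = χ 1 → g = 1) {n : ℕ} (hn : χ 1 = n) {K : ℕ} (A : Subgroup G)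
    (hAn : A.Normal)
    (hA : ∀ H : Subgroup G, (∀ x ∈ H, ∀ y ∈ H, x * y = y * x) → A.relIndex H ≤ K)
    {N : ℕ} (hN : N ∣ A.index) (p : ℕ) (hp : p.Prime) :
    p ^ N.factorization p ≤ p ^ (n.factorial).factorization p * K := by
  have : Fact p.Prime := ⟨hp⟩
  obtain ⟨P⟩ : Nonempty (Sylow p G) := inferInstance
  have hnil : Group.IsNilpotent (P : Subgroup G) := P.isPGroup'.isNilpotent
  obtain ⟨B, hBab, hBidx⟩ := exists_abelian_index_dvd_factorial
    (isCharacter_restrict hχ (P : Subgroup G)) (restrict_faithful hfaith _) (n := n) hn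
  set B' : Subgroup G := B.map (P : Subgroup G).subtype with hB'
  have hB'P : B' ≤ P := by
    rintro _ ⟨b, -, rfl⟩
    exact b.2
  have hB'ab : ∀ x ∈ B', ∀ y ∈ B', x * y = y * x := by
    rintro _ ⟨a, ha, rfl⟩ _ ⟨b, hb, rfl⟩
    exact congrArg Subtype.val (hBab a ha b hb)
  have hB'idx : B'.relIndex P = B.index := by
    rw [Subgroup.relIndex, hB', Subgroup.subgroupOf,
      Subgroup.comap_map_eq_self_of_injective (Subgroup.subtype_injective _)]
  -- the index of `B` is a power of `p` dividing `n!`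
  obtain ⟨k, hk⟩ := P.isPGroup'.index B
  have hk1 : B.index ≤ p ^ (n.factorial).factorization p := by
    rw [hk] at hBidx ⊢
    exact Nat.pow_le_pow_right hp.pos
      ((hp.pow_dvd_iff_le_factorization (Nat.factorial_ne_zero n)).1 hBidx)
  -- the `p`-part of `N` divides `|P : P ∩ A|`
  have h1 : A.relIndex P * ((P : Subgroup G) ⊔ A).index = A.index := by
    rw [← Subgroup.relIndex_sup_right, Subgroup.relIndex_mul_index le_sup_right]
  have h2 : ¬ p ∣ ((P : Subgroup G) ⊔ A).index := fun h =>
    P.not_dvd_index (h.trans (Subgroup.index_dvd_of_le le_sup_left))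
  have h3 : p ^ N.factorization p ∣ A.relIndex P := by
    have h4 : p ^ N.factorization p ∣ A.relIndex P * ((P : Subgroup G) ⊔ A).index := by
      rw [h1]
      exact (Nat.ordProj_dvd N p).trans hN
    exact (Nat.Coprime.pow_left _ ((Nat.Prime.coprime_iff_not_dvd hp).2 h2)).dvd_of_dvd_mul_right h4
  have h5 : A.relIndex P ∣ (A ⊓ B').relIndex P := Subgroup.relIndex_dvd_of_le_left _ inf_le_left
  have h6 : (A ⊓ B').relIndex B' * B'.relIndex P = (A ⊓ B').relIndex P :=
    Subgroup.relIndex_mul_relIndex _ _ _ inf_le_right hB'P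
  have h7 : (A ⊓ B').relIndex B' ≤ K := by
    rw [Subgroup.inf_relIndex_right]
    exact hA B' hB'ab
  have hpos : (A ⊓ B').relIndex P ≠ 0 := Subgroup.index_ne_zero_of_finite
  calc p ^ N.factorization p ≤ (A ⊓ B').relIndex P :=
        Nat.le_of_dvd (Nat.pos_of_ne_zero hpos) (h3.trans h5)
    _ = (A ⊓ B').relIndex B' * B'.relIndex P := h6.symm
    _ ≤ K * p ^ (n.factorial).factorization p := by
        rw [hB'idx]
        exact Nat.mul_le_mul h7 hk1
    _ = _ := mul_comm _ _

theorem jordan_index_le {χ : G → ℂ} (hχ : IsCharacter G χ)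
    (hfaith : ∀ g : G, χ g = χ 1 → g = 1) {n : ℕ} (hn : χ 1 = n) {K : ℕ} (A : Subgroup G)
    (hAn : A.Normal)
    (hA : ∀ H : Subgroup G, (∀ x ∈ H, ∀ y ∈ H, x * y = y * x) → A.relIndex H ≤ K) :
    A.index ≤ n.factorial * K ^ (Nat.primeCounting (n + 1) + 1) := by
  obtain ⟨H, hHab, -, hHidx⟩ := hasAbHall_of_faithful n (Nat.card G) G rfl χ hχ hfaith hn
  have h1 : A.relIndex H * (H ⊔ A).index = A.index := by
    rw [← Subgroup.relIndex_sup_right, Subgroup.relIndex_mul_index le_sup_right]
  have h2 : (H ⊔ A).index ≤ n.factorial * K ^ Nat.primeCounting (n + 1) := by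
    apply jordan_arith Subgroup.index_ne_zero_of_finite
    · intro p hp hdvd
      exact hHidx p hp (hdvd.trans (Subgroup.index_dvd_of_le le_sup_left))
    · intro p hp
      exact pow_factorization_le hχ hfaith hn A hAn hA (Dvd.intro_left _ h1) p hp
  calc A.index = A.relIndex H * (H ⊔ A).index := h1.symm
    _ ≤ K * (n.factorial * K ^ Nat.primeCounting (n + 1)) := Nat.mul_le_mul (hA H hHab) h2
    _ = _ := by ring

end assembly

end Cfsg.Agent.Lib.Helper4
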